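import Cfsg.Agent.H67.SUConj
import Cfsg.Agent.H67.El2
import Cfsg.Agent.H98.ExtraCard
import Cfsg.Agent.H10.UBase

/-! Elements of prime order and normalisers of groups of symplectic type: general tools. -/

set_option autoImplicit false
set_option linter.unusedSectionVars false
set_option linter.style.haveILetI false

namespace Cfsg.Agent.H64.C6

open Cfsg Cfsg.Geo Cfsg.Agent.H98 Cfsg.Agent.H67 Matrix Polynomial

variable {ι : Type} [Fintype ι] [DecidableEq ι] {F : Type*} [Field F] {R : Subgroup (GL ι F)}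

local notation "𝛀" => AlgebraicClosure F

/-- the matrix of an element normalising `R` -/
def InN (R : Subgroup (GL ι F)) (A : Matrix ι ι F) : Prop :=
  ∃ g ∈ subgroupNormalizer R, (g : Matrix ι ι F) = A

theorem InN.mul {A B : Matrix ι ι F} (hA : InN R A) (hB : InN R B) : InN R (A * B) := by
  obtain ⟨a, ha, rfl⟩ := hA
  obtain ⟨b, hb, rfl⟩ := hB
  exact ⟨a * b, mul_mem ha hb, rfl⟩

theorem InN.pow {A : Matrix ι ι F} (hA : InN R A) (k : ℕ) : InN R (A ^ k) := by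
  obtain ⟨a, ha, rfl⟩ := hA
  exact ⟨a ^ k, pow_mem ha k, rfl⟩

theorem scal_mem_N (c : Fˣ) : scal ι c ∈ subgroupNormalizer R :=
  Subgroup.mem_normalizer_iff.2 fun h => by rw [scal_comm, mul_inv_cancel_right]

theorem InN.smul {A : Matrix ι ι F} (hA : InN R A) {c : F} (hc : c ≠ 0) : InN R (c • A) := by
  obtain ⟨a, ha, rfl⟩ := hA
  exact ⟨scal ι (Units.mk0 c hc) * a, mul_mem (scal_mem_N _) ha, by
    rw [Units.val_mul, coe_scal, smul_mul_assoc, one_mul]; rfl⟩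

theorem InN.of_mem {g : GL ι F} (hg : g ∈ R) : InN R (g : Matrix ι ι F) :=
  ⟨g, Subgroup.le_normalizer hg, rfl⟩

/-- `x` has the characteristic polynomial of a semisimple element of the normaliser -/
def Good (R : Subgroup (GL ι F)) (x : Matrix ι ι F) : Prop :=
  ∃ B, InN R B ∧ H66.IsSS B ∧ B.charpoly = x.charpoly ∧
    (x.trace ≠ 0 ∨ ∃ g ∈ R, (g : Matrix ι ι F) = B)

theorem sl_fin [Finite F] {x : GL ι F} (hx : H66.IsSS (x : Matrix ι ι F))
    (h : Good R (x : Matrix ι ι F)) :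
    ∃ g ∈ specialLinear ι F, g⁻¹ * x * g ∈ subgroupNormalizer R := by
  obtain ⟨_, ⟨b, hb, rfl⟩, h1, h2, -⟩ := h
  obtain ⟨P, hP⟩ := H66.exists_SL_conj_of_charpoly_eq h1 hx h2
  refine ⟨SpecialLinearGroup.toGL P, H99.mem_sl.2 P.2, ?_⟩
  have : x * SpecialLinearGroup.toGL P = SpecialLinearGroup.toGL P * b := Units.ext hP.symm
  rwa [mul_assoc, this, inv_mul_cancel_left]

theorem sum_ev (A : Matrix ι ι F) : (ev 𝛀 A).sum = algebraMap F 𝛀 A.trace := by
  rcases isEmpty_or_nonempty ι with h | h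
  · have := card_ev 𝛀 A
    rw [Fintype.card_eq_zero, Multiset.card_eq_zero] at this
    simp [this, Matrix.trace]
  rw [ev, ← Matrix.charpoly_map, ← Matrix.trace_eq_sum_roots_charpoly,
    ← AddMonoidHom.map_trace (algebraMap F 𝛀)]

theorem trace_eq_of_cp {A B : Matrix ι ι F} (h : A.charpoly = B.charpoly) : A.trace = B.trace :=
  (algebraMap F 𝛀).injective (by rw [← sum_ev, ← sum_ev, ev_of_charpoly_eq h])

theorem det_eq_of_cp {A B : Matrix ι ι F} (h : A.charpoly = B.charpoly) : A.det = B.det :=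
  (algebraMap F 𝛀).injective (by rw [← prod_ev, ← prod_ev, ev_of_charpoly_eq h])

theorem sum_ev_inv {A A' : Matrix ι ι F} (h : A * A' = 1) :
    ((ev 𝛀 A).map fun x => x⁻¹).sum = algebraMap F 𝛀 A'.trace := by
  rw [← ev_inv (IsUnit.of_mul_eq_one _ h), Matrix.inv_eq_right_inv h, sum_ev]

theorem trace_inv_eq_of_cp {A B A' B' : Matrix ι ι F} (h : A.charpoly = B.charpoly)
    (hA : A * A' = 1) (hB : B * B' = 1) : A'.trace = B'.trace :=
  (algebraMap F 𝛀).injective (by rw [← sum_ev_inv hA, ← sum_ev_inv hB, ev_of_charpoly_eq h])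

section unitary

variable {K : Type*} [Field K] [Fintype K] {q n : ℕ} [hK : Fact (Fintype.card K = q ^ 2)]
  {T : Subgroup (GL (Fin n) K)}

theorem trace_cjT (A : Matrix (Fin n) (Fin n) K) : (cjT q A).trace = H10.cj K q A.trace := by
  rw [cjT_apply, trace_transpose, ← AddMonoidHom.map_trace (H10.cj K q)]

theorem cjT_of_mem {g : GL (Fin n) K} (hg : g ∈ GU n K q) :
    cjT q (g : Matrix (Fin n) (Fin n) K) = ((g⁻¹ : GL (Fin n) K) : Matrix (Fin n) (Fin n) K) := by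
  have := (isIsom_iff_cjT _).1 ((H10.mem_GU_iff g).1 hg)
  exact (Units.inv_eq_of_mul_eq_one_left this).symm

theorem unitary_of_trace (hU : T ≤ GU n K q) (hs : grpAlg T = ⊤) {g x : GL (Fin n) K}
    (hg : g ∈ subgroupNormalizer T) (hx : x ∈ GU n K q)
    (h : (g : Matrix (Fin n) (Fin n) K).charpoly = (x : Matrix (Fin n) (Fin n) K).charpoly)
    (h0 : (x : Matrix (Fin n) (Fin n) K).trace ≠ 0) : g ∈ GU n K q := by
  obtain ⟨c, hc⟩ := scalar_of_comm_of_grpAlg_eq_top hs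
    (z := cjT q (g : Matrix (Fin n) (Fin n) K) * g) fun t ht => by
      have h1 := cjT_of_mem (hU ((Subgroup.mem_normalizer_iff.1 hg t⁻¹).1 (inv_mem ht)))
      have h2 := cjT_of_mem (hU (inv_mem ht))
      have h3 : g * t⁻¹ * g⁻¹ * g = g * t⁻¹ := by group
      have h4 := congrArg (fun y : GL (Fin n) K => cjT q (y : Matrix (Fin n) (Fin n) K)) h3
      simp only [Units.val_mul (g * t⁻¹ * g⁻¹), Units.val_mul g t⁻¹, cjT_mul, h1, h2,
        inv_inv] at h4
      rw [← mul_assoc, ← h4, mul_assoc, mul_assoc, ← Units.val_mul, ← Units.val_mul]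
      congr 2
      group
  have h1 : cjT q (g : Matrix (Fin n) (Fin n) K) =
      c • ((g⁻¹ : GL (Fin n) K) : Matrix (Fin n) (Fin n) K) := by
    rw [← Units.mul_left_inj g, hc, smul_mul_assoc, Units.inv_mul]
  have h2 := congrArg Matrix.trace h1
  rw [trace_cjT, trace_smul, trace_inv_eq_of_cp h g.mul_inv x.mul_inv, ← cjT_of_mem hx, trace_cjT,
    trace_eq_of_cp h, smul_eq_mul] at h2
  have h3 : c = 1 := (mul_right_cancel₀ (H10.cj_ne_zero.2 h0) (h2.symm.trans (one_mul _).symm))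
  exact (H10.mem_GU_iff g).2 ((isIsom_iff_cjT _).2 (by rw [hc, h3, one_smul]))

theorem su_fin [NeZero n] (hU : T ≤ GU n K q) (hs : grpAlg T = ⊤) {x : GL (Fin n) K}
    (hx : x ∈ GU n K q ⊓ specialLinear (Fin n) K) (hS : H66.IsSS (x : Matrix (Fin n) (Fin n) K))
    (h : Good T (x : Matrix (Fin n) (Fin n) K)) :
    ∃ g ∈ GU n K q ⊓ specialLinear (Fin n) K, g⁻¹ * x * g ∈ subgroupNormalizer T := by
  obtain ⟨_, ⟨b, hb, rfl⟩, h1, h2, h3⟩ := h
  have hbU : b ∈ GU n K q := by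
    rcases h3 with h3 | ⟨g, hg, e⟩
    · exact unitary_of_trace hU hs hb hx.1 h2 h3
    · exact Units.ext e ▸ hU hg
  have hb' : b ∈ H10.SUG n K q :=
    ⟨hbU, H99.mem_sl.2 ((det_eq_of_cp h2).trans (H99.mem_sl.1 hx.2))⟩
  rw [← H10.range_suToGL] at hb'
  have hx' : x ∈ H10.SUG n K q := hx
  rw [← H10.range_suToGL] at hx'
  obtain ⟨b, rfl⟩ := hb'
  obtain ⟨x, rfl⟩ := hx'
  obtain ⟨P, hP⟩ := H66.exists_GL_conj_of_charpoly_eq h1 hS h2
  obtain ⟨k, hk⟩ := isConj_iff.1 (isConj_SU_of_det b x ⟨P, hP⟩ fun a ha => by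
    obtain ⟨C, h4, h5⟩ := h1.exists_commute_det_eq ha
    exact ⟨C, h4, h5⟩)
  refine ⟨_, H10.suToGL_mem k, ?_⟩
  rw [← hk, ← map_inv, ← map_mul, ← map_mul]
  convert hb using 2
  group

end unitary

theorem rep2 {α : Type*} {s : Multiset α} {u v : α} (h : ∀ x ∈ s, x = u ∨ x = v) :
    ∃ a b, s = Multiset.replicate a u + Multiset.replicate b v := by
  induction s using Multiset.induction_on with
  | empty => exact ⟨0, 0, rfl⟩
  | cons x s ih =>
    obtain ⟨a, b, e⟩ := ih fun y hy => h y (Multiset.mem_cons_of_mem hy)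
    rcases h x (Multiset.mem_cons_self _ _) with rfl | rfl
    · exact ⟨a + 1, b, by rw [e, Multiset.replicate_succ, Multiset.cons_add]⟩
    · exact ⟨a, b + 1, by rw [e, Multiset.replicate_succ, Multiset.add_cons]⟩

theorem rep3 {α : Type*} {s : Multiset α} {u v w : α} (h : ∀ x ∈ s, x = u ∨ x = v ∨ x = w) :
    ∃ a b c, s = Multiset.replicate a u + Multiset.replicate b v + Multiset.replicate c w := by
  induction s using Multiset.induction_on with
  | empty => exact ⟨0, 0, 0, rfl⟩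
  | cons x s ih =>
    obtain ⟨a, b, c, e⟩ := ih fun y hy => h y (Multiset.mem_cons_of_mem hy)
    rcases h x (Multiset.mem_cons_self _ _) with rfl | rfl | rfl
    · exact ⟨a + 1, b, c, by rw [e, Multiset.replicate_succ, Multiset.cons_add, Multiset.cons_add]⟩
    · exact ⟨a, b + 1, c, by rw [e, Multiset.replicate_succ, Multiset.add_cons, Multiset.cons_add]⟩
    · exact ⟨a, b, c + 1, by rw [e, Multiset.replicate_succ, Multiset.add_cons]⟩

/-- a semisimple matrix with a single eigenvalue is a scalar -/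
theorem scalar_of_ev (hn : (Fintype.card ι : F) ≠ 0) {A : Matrix ι ι F} (hA : H66.IsSS A) {s : 𝛀}
    (h : ∀ x ∈ ev 𝛀 A, x = s) : ∃ c : F, A = c • 1 := by
  have h1 := sum_ev A
  rw [Multiset.eq_replicate_card.2 h, Multiset.sum_replicate, card_ev, nsmul_eq_mul] at h1
  refine ⟨A.trace / Fintype.card ι, ?_⟩
  rw [← pow_one A, IsSS_pow_eq_smul_iff (Ω := 𝛀) hA]
  intro x hx
  rw [pow_one, pow_one, h x hx, map_div₀, ← h1, map_natCast, mul_div_cancel_left₀]
  rwa [← map_natCast (algebraMap F 𝛀), _root_.map_ne_zero]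

/-- eigenvalues of a non-scalar square root of a scalar -/
theorem ev_sq (h2 : (2 : F) ≠ 0) (hn : (Fintype.card ι : F) ≠ 0) {A : Matrix ι ι F} {z : F}
    (hz : z ≠ 0) (h : A ^ 2 = z • 1) (hA : ∀ c : F, A ≠ c • 1) {s : 𝛀}
    (hs : s ^ 2 = algebraMap F 𝛀 z) : ∃ a b, 0 < a ∧ 0 < b ∧ a + b = Fintype.card ι ∧
      ev 𝛀 A = Multiset.replicate a s + Multiset.replicate b (-s) := by
  have hS : H66.IsSS A := isSS_of_pow_smul (by exact_mod_cast h2) hz h
  obtain ⟨a, b, e⟩ := rep2 (s := ev 𝛀 A) (u := s) (v := -s) fun x hx =>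
    sq_eq_sq_iff_eq_or_eq_neg.1 ((pow_eq_of_mem_ev h hx).trans hs.symm)
  refine ⟨a, b, Nat.pos_of_ne_zero ?_, Nat.pos_of_ne_zero ?_, ?_, e⟩
  · rintro rfl
    obtain ⟨c, hc⟩ := scalar_of_ev hn hS (s := -s) fun x hx =>
      Multiset.eq_of_mem_replicate (by simpa [e] using hx)
    exact hA c hc
  · rintro rfl
    obtain ⟨c, hc⟩ := scalar_of_ev hn hS (s := s) fun x hx =>
      Multiset.eq_of_mem_replicate (by simpa [e] using hx)
    exact hA c hc
  · rw [← card_ev 𝛀 A, e]; simp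

theorem sq_root (z : F) : ∃ s : 𝛀, s ^ 2 = algebraMap F 𝛀 z :=
  IsAlgClosed.exists_pow_nat_eq _ two_pos

theorem two_ne' (h2 : (2 : F) ≠ 0) : (2 : 𝛀) ≠ 0 := by
  rwa [← map_ofNat (algebraMap F 𝛀), _root_.map_ne_zero]

theorem three_ne' (h2 : (3 : F) ≠ 0) : (3 : 𝛀) ≠ 0 := by
  rwa [← map_ofNat (algebraMap F 𝛀), _root_.map_ne_zero]

theorem root_ne {z : F} (hz : z ≠ 0) {s : 𝛀} {k : ℕ} (hk : k ≠ 0)
    (hs : s ^ k = algebraMap F 𝛀 z) : s ≠ 0 := by
  rintro rfl
  rw [zero_pow hk, eq_comm, _root_.map_eq_zero] at hs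
  exact hz hs

/-- dimension three, square roots of scalars -/
theorem cp_sq3 (h2 : (2 : F) ≠ 0) (h3 : (3 : F) ≠ 0) (hn : Fintype.card ι = 3)
    {A B : Matrix ι ι F} {z : F} (hz : z ≠ 0) (hA : A ^ 2 = z • 1) (hB : B ^ 2 = z • 1)
    (nA : ∀ c : F, A ≠ c • 1) (nB : ∀ c : F, B ≠ c • 1) (hd : A.det = B.det) :
    A.charpoly = B.charpoly := by
  obtain ⟨s, hs⟩ := sq_root z
  have h0 := root_ne hz two_ne_zero hs
  have hn' : (Fintype.card ι : F) ≠ 0 := by rw [hn]; exact_mod_cast h3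
  obtain ⟨a, b, a0, b0, ab, e⟩ := ev_sq h2 hn' hz hA nA hs
  obtain ⟨a', b', a0', b0', ab', e'⟩ := ev_sq h2 hn' hz hB nB hs
  have p1 := prod_ev (Ω := 𝛀) A
  have p2 := prod_ev (Ω := 𝛀) B
  rw [hd, ← p2, e, e'] at p1
  have k : 2 * s ^ 3 ≠ 0 := mul_ne_zero (two_ne' h2) (pow_ne_zero _ h0)
  refine charpoly_eq_of_ev (Ω := 𝛀) ?_
  rw [e, e']
  obtain ⟨rfl, rfl⟩ | ⟨rfl, rfl⟩ : a = 1 ∧ b = 2 ∨ a = 2 ∧ b = 1 := by omega
  all_goals obtain ⟨rfl, rfl⟩ | ⟨rfl, rfl⟩ : a' = 1 ∧ b' = 2 ∨ a' = 2 ∧ b' = 1 := by omega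
  all_goals first | rfl | skip
  all_goals simp only [Multiset.prod_add, Multiset.prod_replicate] at p1
  · exact absurd (by linear_combination p1) k
  · exact absurd (by linear_combination -p1) k

/-- dimension four, square roots of scalars -/
theorem cp_sq4 (h2 : (2 : F) ≠ 0) (hn : Fintype.card ι = 4)
    {A B : Matrix ι ι F} {z : F} (hz : z ≠ 0) (hA : A ^ 2 = z • 1) (hB : B ^ 2 = z • 1)
    (nA : ∀ c : F, A ≠ c • 1) (nB : ∀ c : F, B ≠ c • 1) (hd : A.trace = B.trace) :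
    A.charpoly = B.charpoly := by
  obtain ⟨s, hs⟩ := sq_root z
  have h0 := root_ne hz two_ne_zero hs
  have hn' : (Fintype.card ι : F) ≠ 0 := by
    rw [hn]; exact_mod_cast (by simpa [show (4 : F) = 2 * 2 by norm_num] using h2 : (4 : F) ≠ 0)
  obtain ⟨a, b, a0, b0, ab, e⟩ := ev_sq h2 hn' hz hA nA hs
  obtain ⟨a', b', a0', b0', ab', e'⟩ := ev_sq h2 hn' hz hB nB hs
  have p1 := sum_ev A
  have p2 := sum_ev B
  rw [hd, ← p2, e, e'] at p1
  have k : 2 * s ≠ 0 := mul_ne_zero (two_ne' h2) h0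
  have k' : 2 * (2 * s) ≠ 0 := mul_ne_zero (two_ne' h2) k
  refine charpoly_eq_of_ev (Ω := 𝛀) ?_
  rw [e, e']
  obtain ⟨rfl, rfl⟩ | ⟨rfl, rfl⟩ | ⟨rfl, rfl⟩ :
    a = 1 ∧ b = 3 ∨ a = 2 ∧ b = 2 ∨ a = 3 ∧ b = 1 := by omega
  all_goals obtain ⟨rfl, rfl⟩ | ⟨rfl, rfl⟩ | ⟨rfl, rfl⟩ :
    a' = 1 ∧ b' = 3 ∨ a' = 2 ∧ b' = 2 ∨ a' = 3 ∧ b' = 1 := by omega
  all_goals first | rfl | skip
  all_goals simp only [Multiset.sum_add, Multiset.sum_replicate, nsmul_eq_mul, Nat.cast_ofNat,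
    Nat.cast_one] at p1
  all_goals first | exact absurd (by linear_combination p1) k
                  | exact absurd (by linear_combination -p1) k
                  | exact absurd (by linear_combination p1) k'
                  | exact absurd (by linear_combination -p1) k'

/-- dimension four: trace and determinant of a square root of a scalar -/
theorem tr_sq4 (h2 : (2 : F) ≠ 0) (hn : Fintype.card ι = 4)
    {A : Matrix ι ι F} {z : F} (hz : z ≠ 0) (hA : A ^ 2 = z • 1) (nA : ∀ c : F, A ≠ c • 1) :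
    (A.trace = 0 ∧ A.det = z ^ 2) ∨ (A.trace ^ 2 = 4 * z ∧ A.det = -z ^ 2) := by
  obtain ⟨s, hs⟩ := sq_root z
  have hn' : (Fintype.card ι : F) ≠ 0 := by
    rw [hn]; exact_mod_cast (by simpa [show (4 : F) = 2 * 2 by norm_num] using h2 : (4 : F) ≠ 0)
  obtain ⟨a, b, a0, b0, ab, e⟩ := ev_sq h2 hn' hz hA nA hs
  have p1 := sum_ev A
  have p2 := prod_ev (Ω := 𝛀) A
  rw [e] at p1 p2
  have i := (algebraMap F 𝛀).injective
  obtain ⟨rfl, rfl⟩ | ⟨rfl, rfl⟩ | ⟨rfl, rfl⟩ :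
    a = 1 ∧ b = 3 ∨ a = 2 ∧ b = 2 ∨ a = 3 ∧ b = 1 := by omega
  all_goals simp only [Multiset.sum_add, Multiset.sum_replicate, nsmul_eq_mul, Nat.cast_ofNat,
    Nat.cast_one, Multiset.prod_add, Multiset.prod_replicate] at p1 p2
  · refine Or.inr ⟨i ?_, i ?_⟩
    · rw [map_pow, map_mul, ← p1, ← hs, map_ofNat]; ring
    · rw [map_neg, map_pow, ← p2, ← hs]; ring
  · refine Or.inl ⟨i ?_, i ?_⟩
    · rw [map_zero, ← p1]; ring
    · rw [map_pow, ← p2, ← hs]; ring
  · refine Or.inr ⟨i ?_, i ?_⟩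
    · rw [map_pow, map_mul, ← p1, ← hs, map_ofNat]; ring
    · rw [map_neg, map_pow, ← p2, ← hs]; ring

theorem cube_cases {K : Type*} [Field K] {w l x : K} (hw : w ^ 2 + w + 1 = 0) (h : x ^ 3 = l ^ 3) :
    x = l ∨ x = l * w ∨ x = l * w ^ 2 := by
  have : (x - l) * ((x - l * w) * (x - l * w ^ 2)) = 0 := by
    linear_combination h + (-x ^ 2 * l + x * l ^ 2 + (x - l) * l ^ 2 * (w - 1)) * hw
  simpa only [mul_eq_zero, sub_eq_zero] using this

theorem exists_om : ∃ w : 𝛀, w ^ 2 + w + 1 = 0 := by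
  obtain ⟨w, hw⟩ := IsAlgClosed.exists_root (k := 𝛀) (X ^ 2 + X + 1) (by
    have : (X ^ 2 + X + 1 : 𝛀[X]).degree = 2 := by compute_degree!
    rw [this]; norm_num)
  exact ⟨w, by simpa using hw⟩

/-- dimension four, real elements of order three -/
theorem ev_cube4 (h2 : (2 : F) ≠ 0) (h3 : (3 : F) ≠ 0) (hn : Fintype.card ι = 4)
    {A : Matrix ι ι F} (hA : A ^ 3 = 1) (ht : (A ^ 2).trace = A.trace) {w : 𝛀}
    (hw : w ^ 2 + w + 1 = 0) : ∃ a b : ℕ, a + 2 * b = 4 ∧ A.trace = a - b ∧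
      ev 𝛀 A = Multiset.replicate a 1 + Multiset.replicate b w + Multiset.replicate b (w ^ 2) := by
  obtain ⟨a, b, c, e⟩ := rep3 (s := ev 𝛀 A) (u := 1) (v := w) (w := w ^ 2) fun x hx => by
    have := pow_eq_of_mem_ev (c := 1) (by rw [hA, one_smul]) hx
    simpa using cube_cases (l := 1) hw (by simpa using this)
  have c3 : w ^ 3 = 1 := by linear_combination (w - 1) * hw
  have i1 : w⁻¹ = w ^ 2 := inv_eq_of_mul_eq_one_right (by rw [← c3]; ring)
  have i2 : (w ^ 2)⁻¹ = w := inv_eq_of_mul_eq_one_right (by rw [← c3]; ring)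
  have p1 := sum_ev A
  have p2 := sum_ev_inv (A := A) (A' := A ^ 2) (by rw [← pow_succ', hA])
  have p3 := card_ev 𝛀 A
  rw [ht, ← p1, e] at p2
  rw [e] at p1
  rw [e, hn] at p3
  simp only [Multiset.map_add, Multiset.map_replicate, Multiset.sum_add, Multiset.sum_replicate,
    nsmul_eq_mul, i1, i2, inv_one, Multiset.card_add, Multiset.card_replicate] at p1 p2 p3
  have k : w - w ^ 2 ≠ 0 := fun h =>
    three_ne' h3 (by linear_combination (3 - 2 * w) * hw - (2 * w + 1) * h)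
  have k1 : (b : 𝛀) = c := by
    have : ((b : 𝛀) - c) * (w - w ^ 2) = 0 := by linear_combination -p2
    exact sub_eq_zero.1 ((mul_eq_zero.1 this).resolve_right k)
  have t2 := two_ne' h2
  have t3 := three_ne' h3
  have t4 : (2 * 2 : 𝛀) ≠ 0 := mul_ne_zero t2 t2
  obtain rfl : b = c := by
    have hb : b ≤ 4 := by omega
    have hc : c ≤ 4 := by omega
    interval_cases b <;> interval_cases c <;> first | rfl | omega | skip
    all_goals simp only [Nat.cast_ofNat, Nat.cast_one, Nat.cast_zero] at k1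
    all_goals first | exact absurd (by linear_combination k1) t2
                    | exact absurd (by linear_combination -k1) t2
                    | exact absurd (by linear_combination k1) t3
                    | exact absurd (by linear_combination -k1) t3
                    | exact absurd (by linear_combination k1) t4
                    | exact absurd (by linear_combination -k1) t4
                    | exact absurd (by linear_combination k1) (one_ne_zero (α := 𝛀))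
                    | exact absurd (by linear_combination -k1) (one_ne_zero (α := 𝛀))
  refine ⟨a, b, by omega, (algebraMap F 𝛀).injective ?_, e⟩
  rw [← p1, map_sub, map_natCast, map_natCast]
  linear_combination (b : 𝛀) * hw

theorem tr_cube4 (h2 : (2 : F) ≠ 0) (h3 : (3 : F) ≠ 0) (hn : Fintype.card ι = 4)
    {A : Matrix ι ι F} (hA : A ^ 3 = 1) (ht : (A ^ 2).trace = A.trace) (nA : ∀ c : F, A ≠ c • 1) :
    A.trace = 1 ∨ A.trace = -2 := by
  obtain ⟨w, hw⟩ := exists_om (F := F)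
  obtain ⟨a, b, h1, h4, e⟩ := ev_cube4 h2 h3 hn hA ht hw
  obtain ⟨rfl, rfl⟩ | ⟨rfl, rfl⟩ | ⟨rfl, rfl⟩ :
    a = 4 ∧ b = 0 ∨ a = 2 ∧ b = 1 ∨ a = 0 ∧ b = 2 := by omega
  · obtain ⟨c, hc⟩ := scalar_of_ev (by
      rw [hn]; exact_mod_cast (by simpa [show (4 : F) = 2 * 2 by norm_num] using h2 : (4 : F) ≠ 0))
      (H66.isSS_of_pow_eq_one (by exact_mod_cast h3) hA) (s := 1) fun x hx =>
        Multiset.eq_of_mem_replicate (by rw [e] at hx; simpa only [Multiset.replicate_zero, add_zero] using hx)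
    exact absurd hc (nA c)
  · left; rw [h4]; norm_num
  · right; rw [h4]; norm_num

theorem cp_cube4 (h2 : (2 : F) ≠ 0) (h3 : (3 : F) ≠ 0) (hn : Fintype.card ι = 4)
    {A B : Matrix ι ι F} (hA : A ^ 3 = 1) (ht : (A ^ 2).trace = A.trace) (hB : B ^ 3 = 1)
    (ht' : (B ^ 2).trace = B.trace) (h : A.trace = B.trace) : A.charpoly = B.charpoly := by
  obtain ⟨w, hw⟩ := exists_om (F := F)
  obtain ⟨a, b, h1, h4, e⟩ := ev_cube4 h2 h3 hn hA ht hw
  obtain ⟨a', b', h1', h4', e'⟩ := ev_cube4 h2 h3 hn hB ht' hw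
  refine charpoly_eq_of_ev (Ω := 𝛀) ?_
  rw [e, e']
  rw [h4, h4'] at h
  have t6 : (2 * 3 : F) ≠ 0 := mul_ne_zero h2 h3
  obtain ⟨rfl, rfl⟩ | ⟨rfl, rfl⟩ | ⟨rfl, rfl⟩ :
    a = 4 ∧ b = 0 ∨ a = 2 ∧ b = 1 ∨ a = 0 ∧ b = 2 := by omega
  all_goals obtain ⟨rfl, rfl⟩ | ⟨rfl, rfl⟩ | ⟨rfl, rfl⟩ :
    a' = 4 ∧ b' = 0 ∨ a' = 2 ∧ b' = 1 ∨ a' = 0 ∧ b' = 2 := by omega
  all_goals first | rfl | skip
  all_goals simp only [Nat.cast_ofNat, Nat.cast_one, Nat.cast_zero] at h
  all_goals first | exact absurd (by linear_combination h) h3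
                  | exact absurd (by linear_combination -h) h3
                  | exact absurd (by linear_combination h) t6
                  | exact absurd (by linear_combination -h) t6

/-- dimension four, elements of order five with a rational spectrum -/
theorem ev_five (h2 : (2 : F) ≠ 0) (h5 : (5 : F) ≠ 0) (hn : Fintype.card ι = 4)
    {A : Matrix ι ι F} (hA : A ^ 5 = 1) (nA : ∀ c : F, A ≠ c • 1) {k : ℕ}
    (hk : k % 5 = 2 ∨ k % 5 = 3) (h : ∀ x ∈ ev 𝛀 A, x ^ k ∈ ev 𝛀 A) :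
    ev 𝛀 A = (primitiveRoots 5 𝛀).val := by
  have e5 : ∀ x ∈ ev 𝛀 A, x ^ 5 = 1 := fun x hx => by
    simpa using pow_eq_of_mem_ev (c := 1) (by rw [hA, one_smul]) hx
  obtain ⟨z, hz, z1⟩ : ∃ z ∈ ev 𝛀 A, z ≠ 1 := by
    by_contra hc
    push Not at hc
    obtain ⟨c, hc⟩ := scalar_of_ev (by
      rw [hn]; exact_mod_cast (by simpa [show (4 : F) = 2 * 2 by norm_num] using h2 : (4 : F) ≠ 0))
      (H66.isSS_of_pow_eq_one (by exact_mod_cast h5) hA) hc
    exact nA c hc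
  haveI : Fact (Nat.Prime 5) := ⟨by norm_num⟩
  have hp : IsPrimitiveRoot z 5 := orderOf_eq_prime (e5 z hz) z1 ▸ IsPrimitiveRoot.orderOf z
  have h' : ∀ x ∈ ev 𝛀 A, x ^ 2 ∈ ev 𝛀 A := fun x hx => by
    rcases hk with hk | hk
    · have := h x hx
      rwa [pow_eq_pow_mod _ (e5 x hx), hk] at this
    · have h1 : ∀ x ∈ ev 𝛀 A, x ^ 3 ∈ ev 𝛀 A := fun x hx => by
        have := h x hx
        rwa [pow_eq_pow_mod _ (e5 x hx), hk] at this
      have := h1 _ (h1 _ (h1 x hx))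
      rwa [← pow_mul, ← pow_mul, pow_eq_pow_mod _ (e5 x hx)] at this
  refine (Multiset.eq_of_le_of_card_le ((Multiset.le_iff_subset (Finset.nodup _)).2 fun y hy => ?_)
    ?_).symm
  · have hy' := (mem_primitiveRoots (by norm_num)).1 hy
    obtain ⟨i, hi, rfl⟩ := hp.eq_pow_of_pow_eq_one hy'.pow_eq_one
    have a2 := h' z hz
    have a4 := h' _ a2
    have a8 := h' _ a4
    rw [← pow_mul] at a4
    rw [← pow_mul, ← pow_mul, pow_eq_pow_mod _ (e5 z hz)] at a8
    interval_cases i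
    · exact absurd (pow_zero z) (hy'.ne_one (by norm_num))
    · rwa [pow_one]
    exacts [a2, a8, a4]
  · rw [card_ev, hn, Finset.card_val, hp.card_primitiveRoots]
    decide

end Cfsg.Agent.H64.C6
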