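import Cfsg.Agent.H64.C6A
import Cfsg.Agent.H85.L3E
import Cfsg.Agent.H9.SLBasic
import Cfsg.Agent.H10.UTrans

/-! Elements of prime order and the normaliser of `3^(1+2)` in dimension three. -/

set_option autoImplicit false
set_option linter.unusedSectionVars false
set_option linter.style.haveILetI false

namespace Cfsg.Agent.H64.C6

open Cfsg Cfsg.Geo Cfsg.Agent.H98 Cfsg.Agent.H67 Cfsg.Agent.H85.L3 Matrix Polynomial

theorem comm_center27 {G : Type*} [Group G] (h : Nat.card G = 27) (x y : G) :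
    x * y * x⁻¹ * y⁻¹ ∈ Subgroup.center G := by
  haveI : Finite G := Nat.finite_of_card_ne_zero (by omega)
  haveI : Fact (Nat.Prime 3) := ⟨Nat.prime_three⟩
  haveI : Nontrivial G := Finite.one_lt_card_iff_nontrivial.1 (by omega)
  have h1 := Finite.one_lt_card_iff_nontrivial.2
    (IsPGroup.of_card (p := 3) (n := 3) h).center_nontrivial
  have h2 := Subgroup.card_eq_card_quotient_mul_card_subgroup (Subgroup.center G)
  rw [h] at h2
  obtain ⟨k, hk, e⟩ := (Nat.dvd_prime_pow Nat.prime_three (m := 3)).1 (Dvd.intro _ h2.symm)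
  have h3 : IsMulCommutative (G ⧸ Subgroup.center G) := by
    interval_cases k
    · haveI := (Nat.card_eq_one_iff_unique.1 e).1
      exact ⟨⟨fun _ _ => Subsingleton.elim _ _⟩⟩
    · haveI := isCyclic_of_prime_card (p := 3) e
      infer_instance
    · exact IsPGroup.isMulCommutative_of_card_eq_prime_sq (p := 3) e
    · rw [e] at h2; omega
  rw [← QuotientGroup.eq_one_iff]
  simp only [QuotientGroup.mk_mul, QuotientGroup.mk_inv]
  rw [h3.is_comm.comm (x : G ⧸ Subgroup.center G) y]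
  group

variable {F : Type*} [Field F] [Fintype F]

local notation "𝐆" => GL (Fin 3) F
local notation "𝐙" => scalars (Fin 3) F
local notation "𝐒" => specialLinear (Fin 3) F
local notation "𝐌" => Matrix (Fin 3) (Fin 3) F
local notation "𝛀" => AlgebraicClosure F

theorem ch3 (h2 : (2 : F) ≠ 0) {m : 𝐌} (t1 : m.trace = 0) (t2 : (m * m).trace = 0) :
    m * m * m = m.det • 1 := by
  have : (2 : F) • (m * m * m) = (2 * m.trace) • (m * m) - (m.trace ^ 2 - (m * m).trace) • m +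
      (2 : F) • (m.det • 1) := by
    ext i j
    fin_cases i <;> fin_cases j <;>
      simp [Matrix.mul_apply, Fin.sum_univ_three, trace_fin_three, det_fin_three] <;> ring
  rw [t1, t2] at this
  exact smul_right_injective _ h2 (by simpa using this)

theorem proj_scalar {ω : F} (h : Om ω) (h2 : (2 : F) ≠ 0) {x y c : 𝐆} (x3 : x ^ 3 = 1)
    (c3 : c ^ 3 = 1) (cx : c * x = x * c) (cy : c * y = y * c) (e : x * y = c * (y * x)) :
    (c : 𝐌) = ω • 1 ∨ (1 : 𝐌) + ω ^ 2 • (c : 𝐌) + ω • ((c : 𝐌) * c) = 0 := by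
  set E : 𝐌 := 1 + ω ^ 2 • (c : 𝐌) + ω • ((c : 𝐌) * c) with hE
  have c3' : (c : 𝐌) * ((c : 𝐌) * c) = 1 := by
    rw [← pow_three]; exact congrArg Units.val c3
  have cE : (c : 𝐌) * E = ω • E := by
    rw [hE, mul_add, mul_add, mul_smul_comm, mul_smul_comm, c3', smul_add, smul_add, smul_smul,
      smul_smul, ← pow_succ', h.cube, mul_one, one_smul, sq]
    abel
  have k : ∀ g : 𝐆, c * g = g * c → (g : 𝐌) * E = E * g := fun g hg => by
    have hg' : Commute (g : 𝐌) c := (congrArg Units.val hg).symm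
    exact (((Commute.one_right _).add_right (hg'.smul_right _)).add_right
      ((hg'.mul_right hg').smul_right _)).eq
  have EE : E * E = (3 : F) • E := by
    nth_rewrite 1 [hE]
    rw [add_mul, add_mul, smul_mul_assoc, smul_mul_assoc, mul_assoc, cE, mul_smul_comm, cE,
      smul_smul, smul_smul, smul_smul, one_mul]
    have := h.cube
    linear_combination (norm := module) this • E + this • E
  have t : ∀ (g : 𝐆) (j : ℕ), ω ^ j ≠ 1 → g * y = y * (g * c ^ j) → ((g : 𝐌) * E).trace = 0 := by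
    intro g j hj hg
    have a1 : ∀ j : ℕ, (c : 𝐌) ^ j * E = ω ^ j • E := fun j => by
      induction j with
      | zero => simp
      | succ j ih => rw [pow_succ', mul_assoc, ih, mul_smul_comm, cE, smul_smul, pow_succ]
    have a2 : ((y⁻¹ : 𝐆) : 𝐌) * ((g : 𝐌) * E) * y = ω ^ j • ((g : 𝐌) * E) := by
      rw [mul_assoc, mul_assoc, ← k y cy, ← mul_assoc (g : 𝐌), ← Units.val_mul, hg,
        ← mul_assoc, ← Units.val_mul, inv_mul_cancel_left, Units.val_mul, mul_assoc,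
        Units.val_pow_eq_pow_val, a1, mul_smul_comm]
    have a3 := congrArg Matrix.trace a2
    rw [trace_mul_cycle, Units.mul_inv, one_mul, trace_smul, smul_eq_mul] at a3
    exact (mul_eq_zero.1 (by linear_combination -a3 : (ω ^ j - 1) * _ = 0)).resolve_left
      (sub_ne_zero.2 hj)
  have e1 : x * y = y * (x * c ^ 1) := by rw [e, pow_one, ← cx, ← mul_assoc, cy, mul_assoc]
  have t1 := t x 1 (by simpa using h.ne_one) e1
  have t2 := t (x * x) 2 h.sq_ne_one (by
    rw [pow_one] at e1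
    rw [mul_assoc, e1, ← mul_assoc, e1, sq]
    simp only [mul_assoc]
    rw [← mul_assoc c x, cx, mul_assoc])
  have xE := k x cx
  have m2 : (x : 𝐌) * E * ((x : 𝐌) * E) = (3 : F) • (((x * x : 𝐆) : 𝐌) * E) := by
    rw [mul_assoc, ← mul_assoc E, ← xE, mul_assoc, EE, mul_smul_comm, mul_smul_comm, Units.val_mul,
      mul_assoc]
  have m3 := ch3 h2 t1 (by rw [m2, trace_smul, t2, smul_zero])
  rw [m2, smul_mul_assoc, mul_assoc, ← mul_assoc E, ← xE, mul_assoc, EE, ← mul_assoc,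
    ← Units.val_mul, ← pow_three', x3, Units.val_one, one_mul, smul_smul] at m3
  have h9 : (3 * 3 : F) ≠ 0 := mul_ne_zero h.three h.three
  rw [← eq_inv_smul_iff₀ h9, smul_smul] at m3
  generalize (3 * 3 : F)⁻¹ * _ = d at m3
  by_cases hd : d = 0
  · right; rw [m3, hd, zero_smul]
  · left
    rw [m3, mul_smul_comm, mul_one, smul_comm] at cE
    exact smul_right_injective _ hd cE

theorem om_sq {ω : F} (h : Om ω) : Om (ω ^ 2) :=
  ⟨by linear_combination (ω ^ 2 - ω + 1) * h.eq, h.three⟩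

theorem comm_scalar3 {ω : F} (h : Om ω) (h2 : (2 : F) ≠ 0) {x y c : 𝐆} (x3 : x ^ 3 = 1)
    (c3 : c ^ 3 = 1) (cx : c * x = x * c) (cy : c * y = y * c) (e : x * y = c * (y * x)) :
    c ∈ 𝐙 := by
  rcases proj_scalar h h2 x3 c3 cx cy e with a | a
  · exact mem_scalars_of_coe_eq a
  rcases proj_scalar (om_sq h) h2 x3 c3 cx cy e with b | b
  · exact mem_scalars_of_coe_eq b
  have k : (ω - ω ^ 2) • ((c : 𝐌) * c - c) = 0 := by
    have : (ω ^ 2) ^ 2 = ω := by linear_combination ω * h.cube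
    rw [this] at b
    linear_combination (norm := module) a - b
  rw [smul_eq_zero, sub_eq_zero, sub_eq_zero, ← Units.val_mul, Units.val_inj, mul_eq_left] at k
  exact k.resolve_left h.sq_ne ▸ one_mem _

theorem frame27 {ω : F} (h : Om ω) (h2 : (2 : F) ≠ 0) {R : Subgroup 𝐆} (hR : Nat.card R = 27)
    (hRe : Monoid.exponent R = 3) (hRna : ¬ IsMulCommutative R) : ∃ P, pb P R = h.Rs := by
  have h3 : ∀ r ∈ R, r ^ 3 = 1 := fun r hr => by
    have := Monoid.pow_exponent_eq_one (⟨r, hr⟩ : R)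
    rw [hRe] at this
    exact congrArg Subtype.val this
  have hc : ∀ x ∈ R, ∀ y ∈ R, x * y * x⁻¹ * y⁻¹ ∈ 𝐙 := fun x hx y hy => by
    have k := Subgroup.mem_center_iff.1 (comm_center27 hR ⟨x, hx⟩ ⟨y, hy⟩)
    exact comm_scalar3 h h2 (h3 x hx)
      (h3 _ (mul_mem (mul_mem (mul_mem hx hy) (inv_mem hx)) (inv_mem hy)))
      (congrArg Subtype.val (k ⟨x, hx⟩)).symm (congrArg Subtype.val (k ⟨y, hy⟩)).symm (by group)
  obtain ⟨x, hx, y, hy, e⟩ : ∃ x ∈ R, ∃ y ∈ R, (x : 𝐌) * y = ω • ((y : 𝐌) * x) := by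
    obtain ⟨x, hx, y, hy, hxy⟩ : ∃ x ∈ R, ∃ y ∈ R, x * y ≠ y * x := by
      by_contra hn
      push Not at hn
      exact hRna ⟨⟨fun a b => Subtype.ext (hn _ a.2 _ b.2)⟩⟩
    obtain ⟨c, h1, h2⟩ := comm_scalar (hc x hx y hy)
      (h3 _ (mul_mem (mul_mem (mul_mem hx hy) (inv_mem hx)) (inv_mem hy)))
    rcases h.cases h1 with rfl | rfl | rfl
    · exact absurd (Units.ext (by simpa using h2)) hxy
    · exact ⟨x, hx, y, hy, h2⟩
    · exact ⟨y, hy, x, hx, by rw [h2, smul_smul, ← pow_succ', h.cube, one_smul]⟩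
  obtain ⟨P, h1, h2⟩ := h.exists_frame_xy (h3 x hx) (h3 y hy) e
  refine ⟨P, h.eq_Rs (mem_pb.2 (h1 ▸ hx)) (mem_pb.2 (h2 ▸ hy)) (fun r hr => ?_) fun a ha b hb => ?_⟩
  · have := h3 _ (mem_pb.1 hr)
    rw [conj_pow] at this
    simpa using this
  · have := hc _ (mem_pb.1 ha) _ (mem_pb.1 hb)
    rwa [conj_inv, conj_inv, conj_mul, conj_mul, conj_mul, conj_mem_Z_iff] at this

section frame

variable {ω : F} (h : Om ω) {R : Subgroup (GL (Fin 3) F)} {P : GL (Fin 3) F}
  (hP : pb P R = h.Rs)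
include hP

theorem le_sl3 : R ≤ 𝐒 := fun g hg => by
  have := h.Rs_le (hP ▸ mem_pb_conj.2 hg)
  rwa [← inv_inv P, inv_inv P⁻¹, conj_mem_sl_iff] at this

theorem span3 : grpAlg R = ⊤ := by
  rw [eq_top_iff]
  intro X _
  have : ((P⁻¹ : 𝐆) : 𝐌) * X * P ∈ grpAlg h.Rs := by rw [h.grpAlg_Rs]; trivial
  have k := cj_mem_grpAlg (h := P) (L' := R) (fun x hx => mem_pb.1 (hP ▸ hx)) this
  simpa [H98.cj, mul_assoc] using k

theorem good_of {x B : 𝐌} {b : 𝐆} (hb : b ∈ Subgroup.normalizer (h.Rs : Set 𝐆)) {c : F} (hc : c ≠ 0)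
    (e : B = c • (b : 𝐌)) {k : ℕ} {z : F} (hk : (k : F) ≠ 0) (hz : z ≠ 0) (hB : B ^ k = z • 1)
    (hx : B.charpoly = x.charpoly) (h0 : x.trace ≠ 0 ∨ (c = 1 ∧ b ∈ h.Rs)) : Good R x := by
  rw [← hP, ← pb_normalizer, mem_pb] at hb
  have e' : (P : 𝐌) * B * ((P⁻¹ : 𝐆) : 𝐌) = c • ((P * b * P⁻¹ : 𝐆) : 𝐌) := by
    rw [e, mul_smul_comm, smul_mul_assoc]; rfl
  refine ⟨(P : 𝐌) * B * ((P⁻¹ : 𝐆) : 𝐌), ?_, isSS_of_pow_smul hk hz ?_, ?_, ?_⟩
  · rw [e']; exact InN.smul ⟨_, hb, rfl⟩ hc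
  · rw [Units.conj_pow, hB, mul_smul_comm, smul_mul_assoc, mul_one, Units.mul_inv]
  · rw [← hx, coe_units_inv, charpoly_units_conj]
  · refine h0.imp id fun ⟨h1, h2⟩ => ⟨_, mem_pb.1 (hP ▸ h2), ?_⟩
    rw [e', h1, one_smul]

theorem not_big {x : 𝐆} {r : ℕ} (hr : r.Prime) (h2 : r ≠ 2) (h3 : r ≠ 3) (hx : x ∈ 𝐒)
    (h1 : x ^ r = 1) {g : 𝐆} (hN : g⁻¹ * x * g ∈ subgroupNormalizer R) : x = 1 := by
  have k : T6 (subgroupNormalizer R ⊓ 𝐒) :=
    ⟨ω, h, P, by rw [pb_inf, pb_sl, subgroupNormalizer, pb_normalizer, hP]; exact le_rfl⟩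
  have h4 := k.pow36 (g := g⁻¹ * x * g) ⟨hN, by simpa using H99.conj_mem_sl hx g⁻¹⟩
  have h5 := conj_pow (i := 36) (a := g⁻¹) (b := x)
  rw [inv_inv, h4, eq_comm, mul_assoc, inv_mul_eq_one, eq_comm, mul_eq_right] at h5
  have h6 := pow_gcd_eq_one.2 ⟨h1, h5⟩
  rwa [show r.gcd 36 = 1 from ?_, pow_one] at h6
  rw [show 36 = 2 ^ 2 * 3 ^ 2 by norm_num]
  exact Nat.Coprime.mul_right (((Nat.coprime_primes hr Nat.prime_two).2 h2).pow_right _)
    (((Nat.coprime_primes hr Nat.prime_three).2 h3).pow_right _)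

theorem good_two (h2 : (2 : F) ≠ 0) {x : 𝐌} (hd : x.det = 1) {z : F} (hx : x ^ 2 = z • 1)
    (nx : ∀ c : F, x ≠ c • 1) : H66.IsSS x ∧ Good R x := by
  have z3 : z ^ 3 = 1 := by simpa [det_pow, hd] using (congrArg det hx).symm
  have z0 : z ≠ 0 := by rintro rfl; simp at z3
  let s : 𝐌 := !![-1, 0, 0; 0, 0, -1; 0, -1, 0]
  have s2 : (z ^ 2 • s) ^ 2 = z • 1 := by
    have : s ^ 2 = 1 := by ext i j; fin_cases i <;> fin_cases j <;> simp [s, sq]
    rw [_root_.smul_pow, this]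
    congr 1
    linear_combination z * z3
  have e := cp_sq3 h2 h.three (by simp) z0 s2 hx (fun c hc => z0 (by
    simpa [s] using congrFun (congrFun hc 1) 2)) nx (by
      rw [det_smul, hd, Om.det_s, Fintype.card_fin]; linear_combination (z ^ 3 + 1) * z3)
  refine ⟨isSS_of_pow_smul (by exact_mod_cast h2) z0 hx, good_of h hP (b := mk1 _ Om.det_s)
    (h.h1_sq ▸ (mul_mem h.h1_mem h.h1_mem).1) (pow_ne_zero 2 z0) rfl (by exact_mod_cast h2) z0 s2 e
    (Or.inl ?_)⟩
  rw [← trace_eq_of_cp e]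
  simpa [s, trace_fin_three] using z0

omit hP in
theorem ev_dM (a b c : F) :
    ev 𝛀 (dM a b c) = {algebraMap F 𝛀 a, algebraMap F 𝛀 b, algebraMap F 𝛀 c} := by
  have : dM a b c = diagonal ![a, b, c] := by
    ext i j; fin_cases i <;> fin_cases j <;> simp [dM]
  rw [ev, this, charpoly_diagonal, Fin.prod_univ_three]
  simp only [Polynomial.map_mul, Polynomial.map_sub, map_X, map_C]
  rw [roots_mul (mul_ne_zero (mul_ne_zero (X_sub_C_ne_zero _) (X_sub_C_ne_zero _))
    (X_sub_C_ne_zero _)), roots_mul (mul_ne_zero (X_sub_C_ne_zero _) (X_sub_C_ne_zero _))]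
  simp

theorem good_three {x : 𝐌} (hd : x.det = 1) {z : F} (hx : x ^ 3 = z • 1)
    (nx : ∀ c : F, x ≠ c • 1) : H66.IsSS x ∧ Good R x := by
  have z3 : z ^ 3 = 1 := by simpa [det_pow, hd] using (congrArg det hx).symm
  have z0 : z ≠ 0 := by rintro rfl; simp at z3
  have h3 : ((3 : ℕ) : F) ≠ 0 := by exact_mod_cast h.three
  have hS := isSS_of_pow_smul h3 z0 hx
  refine ⟨hS, ?_⟩
  have hd' : h.dG ∈ Subgroup.normalizer (h.Rs : Set 𝐆) :=
    Subgroup.mem_normalizer_fintype fun _ ⟨a, v, hv⟩ => ⟨H99.conj_mem_sl a _, _, h.act_d _ v hv⟩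
  have i := (algebraMap F 𝛀).injective
  have two : ∀ (l : 𝛀) (η : F) (b : 𝐆), Om η → b ∈ Subgroup.normalizer (h.Rs : Set 𝐆) →
      (b : 𝐌) = dM η 1 1 → ev 𝛀 x = {l * algebraMap F 𝛀 η, l, l} → Good R x := by
    intro l η b hη hb eb e
    have k : η + 2 ≠ 0 := fun k => hη.three (by linear_combination hη.eq - (η - 1) * k)
    have p1 := sum_ev x
    have hl : l ^ 3 = algebraMap F 𝛀 z := pow_eq_of_mem_ev hx (by simp [e])
    obtain ⟨l, rfl⟩ : ∃ c, algebraMap F 𝛀 c = l := ⟨x.trace / (η + 2), by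
      rw [map_div₀, ← p1, e, div_eq_iff ((_root_.map_ne_zero _).2 k), map_add, map_ofNat]
      simp; ring⟩
    rw [← map_pow] at hl
    have l0 : l ≠ 0 := by rintro rfl; exact z0 (by simpa using (i hl).symm)
    have eB : l • (b : 𝐌) = dM (l * η) l l := by
      rw [eb]; ext i j; fin_cases i <;> fin_cases j <;> simp [dM]
    have cp : (l • (b : 𝐌)).charpoly = x.charpoly :=
      charpoly_eq_of_ev (Ω := 𝛀) (by rw [eB, ev_dM, e, map_mul])
    refine good_of h hP hb l0 rfl h3 z0 ?_ cp (Or.inl ?_)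
    · rw [eB, ← i hl]
      ext i j; fin_cases i <;> fin_cases j <;> simp [dM, pow_three]
      linear_combination l ^ 3 * hη.cube
    · rw [← trace_eq_of_cp cp, eB]
      simp only [dM, trace_fin_three]
      exact fun e => mul_ne_zero l0 k (by simp at e; linear_combination e)
  have e1 : ((h.dG : 𝐆) : 𝐌) = dM ω 1 1 := rfl
  have e2 : ((h.dG * h.dG : 𝐆) : 𝐌) = dM (ω ^ 2) 1 1 := by
    rw [Units.val_mul, e1]; ext i j; fin_cases i <;> fin_cases j <;> simp [dM, sq]
  have t1 := fun l => two l ω _ h hd' e1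
  have t2 := fun l => two l (ω ^ 2) _ (om_sq h) (mul_mem hd' hd') e2
  set w := algebraMap F 𝛀 ω with hw
  have w1 : w ^ 2 + w + 1 = 0 := by simpa using congrArg (algebraMap F 𝛀) h.eq
  have w3 : w ^ 3 = 1 := by simpa using congrArg (algebraMap F 𝛀) h.cube
  rw [map_pow, ← hw] at t2
  have key : ∀ l : 𝛀, l ^ 3 = algebraMap F 𝛀 z → Good R x ∨ ev 𝛀 x = {l, l * w, l * w ^ 2} := by
    intro l hl
    obtain ⟨a, b, c, e⟩ := rep3 (s := ev 𝛀 x) fun y hy =>
      cube_cases w1 ((pow_eq_of_mem_ev hx hy).trans hl.symm)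
    have p := card_ev 𝛀 x
    rw [e] at p
    simp only [Multiset.card_add, Multiset.card_replicate, Fintype.card_fin] at p
    have sc : ∀ s : 𝛀, ev 𝛀 x ≠ Multiset.replicate 3 s := fun s hs => by
      obtain ⟨c, hc⟩ := scalar_of_ev (by simpa using h.three) hS (s := s) fun y hy =>
        Multiset.eq_of_mem_replicate (hs ▸ hy)
      exact nx c hc
    have a1 : l * w * w = l * w ^ 2 := by ring
    have a2 : l * w * w ^ 2 = l := by linear_combination l * w3
    have a3 : l * w ^ 2 * w = l := by linear_combination l * w3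
    have a4 : l * w ^ 2 * w ^ 2 = l * w := by linear_combination l * w * w3
    have sw : ∀ u v : 𝛀, ({u, u, v} : Multiset 𝛀) = {v, u, u} := fun u v => by
      rw [Multiset.pair_comm u v]; exact Multiset.cons_swap _ _ _
    have ha : a ≤ 3 := by omega
    have hb : b ≤ 3 := by omega
    obtain rfl : c = 3 - a - b := by omega
    interval_cases a <;> interval_cases b <;> first | omega | skip
    · exact absurd e (sc _)
    · exact Or.inl (t2 _ (by rw [a4]; exact e))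
    · exact Or.inl (t1 (l * w) (by rw [a1, e]; exact sw _ _))
    · exact absurd e (sc _)
    · exact Or.inl (t1 _ (by rw [a3]; exact e))
    · exact Or.inr e
    · exact Or.inl (t2 _ (by rw [a2]; exact e))
    · exact Or.inl (t2 l (by rw [e]; exact sw _ _))
    · exact Or.inl (t1 l (by rw [e]; exact sw _ _))
    · exact absurd e (sc _)
  obtain ⟨l, hl⟩ := IsAlgClosed.exists_pow_nat_eq (algebraMap F 𝛀 z) (n := 3) (by norm_num)
  refine (key l hl).elim id fun e => ?_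
  have p := prod_ev (Ω := 𝛀) x
  rw [e, hd, map_one] at p
  simp only [Multiset.insert_eq_cons, Multiset.prod_cons, Multiset.prod_singleton] at p
  refine (key 1 (by linear_combination hl - p + l ^ 3 * w3)).elim id fun e => ?_
  refine good_of h hP (b := h.xG) (Subgroup.le_normalizer h.x_mem) one_ne_zero (one_smul _ _).symm
    h3 one_ne_zero (by rw [one_smul]; exact congrArg Units.val (h.cube_of_mem h.x_mem))
    (charpoly_eq_of_ev (Ω := 𝛀) ?_) (Or.inr ⟨rfl, h.x_mem⟩)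
  rw [e]
  erw [ev_dM]
  simp [hw]

end frame

theorem not_scalar3 {ι : Type} [Fintype ι] [DecidableEq ι] [Nonempty ι] {x : GL ι F} {r : ℕ}
    (hc : (Fintype.card ι).Coprime r) (hx : x ∈ specialLinear ι F) (h1 : x ^ r = 1) (h2 : x ≠ 1)
    (z : F) : (x : Matrix ι ι F) ≠ z • 1 := fun e => by
  have a1 := H99.mem_sl.1 hx
  have a2 := congrArg Units.val h1
  rw [e, det_smul, det_one, mul_one] at a1
  rw [Units.val_pow_eq_pow_val, e, _root_.smul_pow, one_pow] at a2
  have a3 : z ^ r = 1 := by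
    simpa using congrFun (congrFun a2 (Classical.arbitrary ι)) (Classical.arbitrary ι)
  have := pow_gcd_eq_one.2 ⟨a1, a3⟩
  rw [hc, pow_one] at this
  exact h2 (Units.ext (by rw [e, this, one_smul, Units.val_one]))

theorem nine_sl {q : ℕ} (hq : Fintype.card F = q) (h3 : q % 3 = 1) (h : 81 ∣ Nat.card 𝐒) :
    q % 9 = 1 := by
  have h1 := H9.card_sl_fin (F := F) 3 (by norm_num)
  rw [Nat.card_congr (H9.slEquivKerDet (ι := Fin 3) (R := F)).toEquiv, hq] at h1
  have h2 : 3 * 81 ∣ ∏ i : Fin 3, (q ^ 3 - q ^ (i : ℕ)) := h1 ▸ Nat.mul_dvd_mul (by omega) h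
  have h4 := (ZMod.natCast_eq_zero_iff _ 243).2 h2
  have hq1 : 1 ≤ q := by omega
  rw [Fin.prod_univ_three, Nat.cast_mul, Nat.cast_mul, Nat.cast_sub (Nat.pow_le_pow_right hq1 (by simp)),
    Nat.cast_sub (Nat.pow_le_pow_right hq1 (by simp)),
    Nat.cast_sub (Nat.pow_le_pow_right hq1 (by simp))] at h4
  have k : ∀ a : ZMod 243, a.val % 3 = 1 → (a ^ 3 - a ^ 0) * (a ^ 3 - a ^ 1) * (a ^ 3 - a ^ 2) = 0 →
      a.val % 9 = 1 := by decide +kernel
  have := k q (by rw [ZMod.val_natCast]; omega) (by simpa using h4)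
  rw [ZMod.val_natCast] at this
  omega

theorem nine_su {q : ℕ} [Fact (Fintype.card F = q ^ 2)] (h3 : q % 3 = 2)
    (h : 81 ∣ Nat.card (H10.SUG 3 F q)) : q % 9 = 8 := by
  have h1 := H10.card_SUG_mul (F := F) (q := q) (n := 3) (by norm_num)
  have h2 : 3 * 81 ∣ _ := h1 ▸ Nat.mul_dvd_mul (by omega : 3 ∣ q + 1) h
  have h4 := (ZMod.natCast_eq_zero_iff _ 243).2 h2
  simp only [Finset.prod_range_succ, Finset.prod_range_zero] at h4
  norm_num [Nat.even_add_one] at h4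
  rw [Nat.cast_sub (Nat.one_le_pow _ _ (by omega))] at h4
  have k : ∀ a : ZMod 243, a.val % 3 = 2 → a ^ 3 * ((a + 1) * (a ^ 2 - 1) * (a ^ 3 + 1)) = 0 →
      a.val % 9 = 8 := by decide +kernel
  have := k q (by rw [ZMod.val_natCast]; omega) (by simpa using h4)
  rw [ZMod.val_natCast] at this
  omega

theorem exists_omF (h3 : (3 : F) ≠ 0) (h : 3 ∣ Fintype.card F - 1) : ∃ ω : F, Om ω := by
  haveI : Fact (Nat.Prime 3) := ⟨Nat.prime_three⟩
  obtain ⟨u, hu⟩ := exists_prime_orderOf_dvd_card' (G := Fˣ) 3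
    (by rwa [Nat.card_units, Nat.card_eq_fintype_card])
  refine ⟨u, om_of_cube h3 ?_ fun e => ?_⟩
  · rw [← Units.val_pow_eq_pow_val, ← hu, pow_orderOf_eq_one, Units.val_one]
  · rw [Units.val_eq_one.1 e, orderOf_one] at hu
    omega

end Cfsg.Agent.H64.C6
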