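import Cfsg.Agent.H64.C6A

/-! Elements of prime order and the normaliser of `4 ∘ 2^(1+4)` in dimension four. -/

set_option autoImplicit false
set_option linter.unusedSectionVars false
set_option linter.style.haveILetI false

namespace Cfsg.Agent.H64.C6

open Cfsg Cfsg.Geo Cfsg.Agent.H98 Cfsg.Agent.H67 Matrix Polynomial

theorem card_modEq_fix {G : Type*} [Group G] [Finite G] {D : Subgroup G} {g : G} {r : ℕ}
    [Fact r.Prime] (hg : ∀ d ∈ D, g * d * g⁻¹ ∈ D) (h1 : g ^ r = 1) :
    Nat.card D ≡ Nat.card (D ⊓ Subgroup.centralizer {g} : Subgroup G) [MOD r] := by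
  classical
  haveI := Fintype.ofFinite D
  let f : Function.End D := fun d => ⟨g * d * g⁻¹, hg d d.2⟩
  have k : ∀ (n : ℕ) (d : D), ((f ^ n) d : G) = g ^ n * d * (g ^ n)⁻¹ := fun n => by
    induction n with
    | zero => intro d; simp; rfl
    | succ n ih =>
      intro d
      rw [pow_succ, pow_succ]
      exact (ih (f d)).trans (by simp only [f]; group)
  have := Equiv.Perm.card_fixedPoints_modEq (f := f) (p := r) (n := 1) (by
    funext d
    apply Subtype.ext
    rw [pow_one, k, h1]; simp; rfl)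
  rw [← Nat.card_eq_fintype_card, ← Nat.card_eq_fintype_card] at this
  rwa [Nat.card_congr (α := Function.fixedPoints f) (β := (D ⊓ Subgroup.centralizer {g} : Subgroup G))
    ⟨fun d => ⟨d.1.1, d.1.2, Subgroup.mem_centralizer_singleton_iff.2
        (mul_inv_eq_iff_eq_mul.1 (congrArg Subtype.val d.2)).symm⟩,
      fun d => ⟨⟨d.1, d.2.1⟩, Subtype.ext (mul_inv_eq_iff_eq_mul.2
        (Subgroup.mem_centralizer_singleton_iff.1 d.2.2).symm)⟩,
      fun _ => rfl, fun _ => rfl⟩] at this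

variable {ι : Type} [Fintype ι] [DecidableEq ι] {F : Type*} [Field F] [Finite F]

theorem tr_anti (h2 : (2 : F) ≠ 0) {A B : Matrix ι ι F} (hB : IsUnit B) (h : A * B = -(B * A)) :
    A.trace = 0 := by
  obtain ⟨b, rfl⟩ := hB
  have : A = -((b : Matrix ι ι F) * A * (b⁻¹ : GL ι F)) := by
    rw [← neg_mul, ← h, Units.mul_inv_cancel_right]
  have k := congrArg trace this
  rw [trace_neg, trace_mul_cycle, Units.inv_mul, one_mul] at k
  exact (mul_eq_zero.1 (by linear_combination k : 2 * A.trace = 0)).resolve_left h2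

/-- the matrix of an element of `R` -/
def InR (R : Subgroup (GL ι F)) (A : Matrix ι ι F) : Prop := ∃ g ∈ R, (g : Matrix ι ι F) = A

theorem InR.mul {R : Subgroup (GL ι F)} {A B : Matrix ι ι F} (hA : InR R A) (hB : InR R B) :
    InR R (A * B) := by
  obtain ⟨a, ha, rfl⟩ := hA
  obtain ⟨b, hb, rfl⟩ := hB
  exact ⟨a * b, mul_mem ha hb, rfl⟩

theorem InR.isUnit {R : Subgroup (GL ι F)} {A : Matrix ι ι F} (hA : InR R A) : IsUnit A := by
  obtain ⟨a, -, rfl⟩ := hA
  exact a.isUnit

theorem InR.inN {R : Subgroup (GL ι F)} {A : Matrix ι ι F} (hA : InR R A) : InN R A := by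
  obtain ⟨a, ha, rfl⟩ := hA
  exact InN.of_mem ha

/-- the group `4 ∘ 2^(1+4)` -/
structure E4 (R : Subgroup (GL ι F)) (i : F) : Prop where
  two : (2 : F) ≠ 0
  dim : Fintype.card ι = 4
  span : grpAlg R = ⊤
  ii : i * i = -1
  imem : InR R (i • 1)
  pm : ∀ {A B}, InR R A → InR R B → A * B = B * A ∨ A * B = -(B * A)
  sq : ∀ {A}, InR R A → A * A = 1 ∨ A * A = -1
  card : Nat.card R = 64
  cardZ : Nat.card (R ⊓ scalars ι F : Subgroup (GL ι F)) = 4

theorem exists_E4 (hn : Fintype.card ι = 4) {R : Subgroup (GL ι F)}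
    (hR : IsSymplecticTypeGroup 2 R) (hi : ActsAbsolutelyIrreducibly (matrixSet R))
    (hc : Nat.card R = 64) (hz : Nat.card (Subgroup.center R) = 4) : ∃ i, E4 R i := by
  haveI : Nonempty ι := Fintype.card_pos_iff.1 (by omega)
  have hs := grpAlg_eq_top_of_absIrr hi
  have hcm := (card_sq_mul_card_center hR hi hz).2
  have h4 : ∀ r ∈ R, r ^ 4 = 1 := fun r hr => by
    have := Monoid.pow_exponent_eq_one (⟨r, hr⟩ : R)
    rw [hR.exponent_eq] at this
    exact congrArg Subtype.val this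
  have sc : ∀ {c : Fˣ} {k : ℕ}, scal ι c ^ k = 1 → (c : F) ^ k = 1 := fun h => by
    rw [← scal_pow, ← scal_one] at h
    rw [← Units.val_pow_eq_pow_val, scal_injective h, Units.val_one]
  obtain ⟨i, hi1, hi2⟩ : ∃ i : Fˣ, scal ι i ∈ R ∧ (i : F) ^ 2 ≠ 1 := by
    obtain ⟨z, hz'⟩ := (hR.cyclic_of_characteristic (Subgroup.center R) inferInstance
      inferInstance).exists_ofOrder_eq_natCard
    have h1 : z.1.1 ∈ scalars ι F := (center_eq_of_span hs).le z.2
    obtain ⟨c, hc⟩ := mem_scalars_iff'.1 h1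
    refine ⟨c, hc ▸ z.1.2, fun e => ?_⟩
    have : z ^ 2 = 1 := Subtype.ext (Subtype.ext (by
      change (z.1.1) ^ 2 = 1
      rw [hc, ← scal_pow, show c ^ 2 = 1 from Units.ext e, scal_one]))
    have := orderOf_dvd_of_pow_eq_one this
    rw [hz', hz] at this
    omega
  have ii : (i : F) * i = -1 := by
    have := sc (h4 _ hi1)
    exact (mul_self_eq_one_iff.1 (by linear_combination this)).resolve_left (by rwa [← _root_.sq])
  have pm : ∀ {A B}, InR R A → InR R B → A * B = B * A ∨ A * B = -(B * A) := by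
    rintro _ _ ⟨a, ha, rfl⟩ ⟨b, hb, rfl⟩
    obtain ⟨c, hc⟩ := mem_scalars_iff'.1 (hcm a ha b hb)
    have e : a * b = scal ι c * (b * a) := by rw [← hc]; group
    have a1 := mul_pow_of_central_comm (scal_comm c) e 4
    rw [h4 _ (mul_mem hb ha), h4 a ha, h4 b hb, mul_one, mul_one] at a1
    have a2 := sc a1.symm
    have a3 := sc (hc ▸ h4 _ (mul_mem (mul_mem (mul_mem ha hb) (inv_mem ha)) (inv_mem hb)))
    have a4 : (c : F) * c = 1 := by
      rw [show Nat.choose 4 2 = 6 from rfl] at a2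
      linear_combination a2 - (c : F) ^ 2 * a3
    have e' := congrArg Units.val e
    rw [Units.val_mul, Units.val_mul, coe_scal, smul_mul_assoc, one_mul, Units.val_mul] at e'
    rcases mul_self_eq_one_iff.1 a4 with h | h <;> simp [e', h]
  refine ⟨i, fun h2 => hi2 (by linear_combination ii - h2), hn, hs, ii, ⟨_, hi1, coe_scal i⟩, pm,
    ?_, hc, card_center_eq_of_span hs ▸ hz⟩
  rintro _ ⟨a, ha, rfl⟩
  obtain ⟨c, hc⟩ := scalar_of_comm_of_grpAlg_eq_top hs (z := (a : Matrix ι ι F) * a) fun g hg => by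
    rcases pm ⟨a, ha, rfl⟩ ⟨g, hg, rfl⟩ with h | h
    · rw [mul_assoc, h, ← mul_assoc, h, mul_assoc]
    · rw [mul_assoc, h, mul_neg, ← mul_assoc, h, neg_mul, neg_neg, mul_assoc]
  have a1 := congrArg Units.val (h4 a ha)
  rw [Units.val_pow_eq_pow_val, show 4 = 2 * 2 from rfl, pow_mul, _root_.sq (a : Matrix ι ι F), hc,
    _root_.sq, smul_mul_smul_comm, one_mul] at a1
  have a2 : c * c = 1 := by
    simpa using congrFun (congrFun a1 (Classical.arbitrary ι)) (Classical.arbitrary ι)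
  rcases mul_self_eq_one_iff.1 a2 with h | h <;> simp [hc, h]

/-- half the negative of `(1 + I) (1 + J)` -/
noncomputable def uq (I J : Matrix ι ι F) : Matrix ι ι F := (-2 : F)⁻¹ • ((1 + I) * (1 + J))

/-- a pair of anticommuting square roots of `-1` -/
structure QP (I J : Matrix ι ι F) : Prop where
  two : (2 : F) ≠ 0
  II : I * I = -1
  JJ : J * J = -1
  JI : J * I = -(I * J)

namespace QP

variable {I J : Matrix ι ι F} (h : QP I J)
include h

theorem II' (X : Matrix ι ι F) : I * (I * X) = -X := by rw [← mul_assoc, h.II, neg_one_mul]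
theorem JJ' (X : Matrix ι ι F) : J * (J * X) = -X := by rw [← mul_assoc, h.JJ, neg_one_mul]
theorem JI' (X : Matrix ι ι F) : J * (I * X) = -(I * (J * X)) := by
  rw [← mul_assoc, h.JI, neg_mul, mul_assoc]
theorem unitI : IsUnit I := IsUnit.of_mul_eq_one (-I) (by rw [mul_neg, h.II, neg_neg])
theorem unitJ : IsUnit J := IsUnit.of_mul_eq_one (-J) (by rw [mul_neg, h.JJ, neg_neg])

theorem uq_sq : uq I J * uq I J = -uq I J - 1 := by
  have e : (1 + I) * (1 + J) * ((1 + I) * (1 + J)) =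
      (2 : F) • ((1 + I) * (1 + J)) - (4 : F) • 1 := by
    simp only [mul_add, add_mul, mul_one, one_mul, mul_assoc, h.II, h.JJ, h.JI, h.II', h.JI',
      mul_neg, neg_neg]
    module
  have h2 := h.two
  rw [uq, smul_mul_smul_comm, e, smul_sub, smul_smul, smul_smul, ← neg_smul]
  congr 1
  · congr 1; field_simp
  · rw [show (-2 : F)⁻¹ * (-2)⁻¹ * 4 = 1 by field_simp; norm_num, one_smul]

theorem uq_cube : uq I J ^ 3 = 1 := by
  rw [pow_three, h.uq_sq, mul_sub, mul_neg, h.uq_sq]; simp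

theorem tr_I {m : Matrix ι ι F} (hJ : J * m = m * J) : (I * m).trace = 0 :=
  tr_anti h.two h.unitJ (by rw [h.JI', neg_neg, mul_assoc, hJ])

theorem tr_uq {m : Matrix ι ι F} (hI : I * m = m * I) (hJ : J * m = m * J) :
    (uq I J * m).trace = (-2 : F)⁻¹ * m.trace := by
  have a1 := h.tr_I hJ
  have a2 : (J * m).trace = 0 := tr_anti h.two h.unitI (by rw [mul_assoc, ← hI, h.JI'])
  have a3 : (I * (J * m)).trace = 0 := tr_anti h.two h.unitJ (by
    rw [h.JI', neg_neg, mul_assoc, mul_assoc, ← hJ])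
  simp only [uq, smul_mul_assoc, trace_smul, mul_add, add_mul, mul_one, one_mul, mul_assoc,
    trace_add, a1, a2, a3, add_zero, smul_eq_mul]

theorem tr_uq_sq {m : Matrix ι ι F} (hI : I * m = m * I) (hJ : J * m = m * J) :
    (uq I J * uq I J * m).trace = (-2 : F)⁻¹ * m.trace := by
  have h2 := h.two
  rw [h.uq_sq, sub_mul, neg_mul, trace_sub, trace_neg, h.tr_uq hI hJ, one_mul]
  field_simp; ring

end QP

theorem comm_uq {I J X : Matrix ι ι F} (h1 : Commute X I) (h2 : Commute X J) :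
    Commute X (uq I J) :=
  (((Commute.one_right _).add_right h1).mul_right ((Commute.one_right _).add_right h2)).smul_right _

/-- five anticommuting involutions -/
structure Fr5 (γ : Fin 5 → Matrix ι ι F) : Prop where
  two : (2 : F) ≠ 0
  sq : ∀ k, γ k * γ k = 1
  anti : ∀ k l, k ≠ l → γ k * γ l = -(γ l * γ k)

/-- a lift of a five-cycle -/
def cyc5 (γ : Fin 5 → Matrix ι ι F) : Matrix ι ι F :=
  (1 + γ 0 * γ 1) * (1 + γ 1 * γ 2) * ((1 + γ 2 * γ 3) * (1 + γ 3 * γ 4))

namespace Fr5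

variable {γ : Fin 5 → Matrix ι ι F} (h : Fr5 γ)
include h

theorem sq' (k : Fin 5) (X : Matrix ι ι F) : γ k * (γ k * X) = X := by
  rw [← mul_assoc, h.sq, one_mul]

theorem pair_sq {k l : Fin 5} (hk : k ≠ l) : γ k * γ l * (γ k * γ l) = -1 := by
  rw [mul_assoc, ← mul_assoc (γ l), h.anti l k hk.symm, neg_mul, mul_assoc, h.sq, mul_one, mul_neg,
    h.sq]

theorem T_fst {k l : Fin 5} (hk : k ≠ l) : (1 + γ k * γ l) * γ k = -(γ l * (1 + γ k * γ l)) := by
  rw [add_mul, mul_add, mul_assoc, ← mul_assoc (γ l), h.anti l k hk.symm, mul_neg, h.sq', neg_mul,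
    mul_assoc, h.sq]
  simp

theorem T_snd (k l : Fin 5) : (1 + γ k * γ l) * γ l = γ k * (1 + γ k * γ l) := by
  rw [add_mul, mul_add, mul_assoc, h.sq, h.sq']
  simp [add_comm]

theorem T_oth {k l m : Fin 5} (hk : k ≠ m) (hl : l ≠ m) :
    (1 + γ k * γ l) * γ m = γ m * (1 + γ k * γ l) := by
  rw [add_mul, mul_add, mul_assoc, h.anti l m hl, mul_neg, ← mul_assoc, h.anti k m hk]
  simp [mul_assoc]

theorem cyc5_mul (k : Fin 5) :
    cyc5 γ * γ k = γ (k + 1) * cyc5 γ ∨ cyc5 γ * γ k = -(γ (k + 1) * cyc5 γ) := by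
  have st : ∀ {A B X Y Z : Matrix ι ι F}, A * Y = Z * A → B * X = Y * B → A * B * X = Z * (A * B) :=
    fun h1 h2 => by rw [mul_assoc, h2, ← mul_assoc, h1, mul_assoc]
  have sn : ∀ {A X Y : Matrix ι ι F}, A * X = Y * A → A * -X = -Y * A := fun h1 => by
    rw [mul_neg, h1, neg_mul]
  have f : ∀ {k l : Fin 5}, k ≠ l → (1 + γ k * γ l) * γ k = -γ l * (1 + γ k * γ l) := fun hk => by
    rw [h.T_fst hk, neg_mul]
  simp only [← neg_mul]
  fin_cases k
  · exact Or.inr (st (st (f (by decide)) (h.T_oth (by decide) (by decide)))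
      (st (h.T_oth (by decide) (by decide)) (h.T_oth (by decide) (by decide))))
  · exact Or.inr (st (st (sn (h.T_oth (by decide) (by decide))) (f (by decide)))
      (st (h.T_oth (by decide) (by decide)) (h.T_oth (by decide) (by decide))))
  · exact Or.inr (st (st (sn (h.T_oth (by decide) (by decide)))
      (sn (h.T_oth (by decide) (by decide))))
      (st (f (by decide)) (h.T_oth (by decide) (by decide))))
  · exact Or.inr (st (st (sn (h.T_oth (by decide) (by decide)))
      (sn (h.T_oth (by decide) (by decide))))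
      (st (sn (h.T_oth (by decide) (by decide))) (f (by decide))))
  · exact Or.inl (st (st (h.T_snd _ _) (h.T_snd _ _)) (st (h.T_snd _ _) (h.T_snd _ _)))

theorem ne_pm [Nonempty ι] {k l : Fin 5} (hk : k ≠ l) : γ k ≠ γ l ∧ γ k ≠ -γ l := by
  have a := h.anti k l hk
  have t : (1 : Matrix ι ι F) ≠ -1 := fun e => h.two (by
    have := congrFun (congrFun e (Classical.arbitrary ι)) (Classical.arbitrary ι)
    simp at this
    linear_combination this)
  refine ⟨fun e => ?_, fun e => ?_⟩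
  · rw [e, h.sq] at a; exact t a
  · rw [e, neg_mul, mul_neg, h.sq, neg_neg] at a; exact t a.symm

theorem exists_five [Nonempty ι] {g : GL ι F} {c : F} (e : (g : Matrix ι ι F) = c • cyc5 γ) :
    ∃ k, (g ^ k) ^ 5 = 1 ∧ g ^ k ≠ 1 := by
  have s : ∀ k, (g : Matrix ι ι F) * γ k = γ (k + 1) * g ∨
      (g : Matrix ι ι F) * γ k = -(γ (k + 1) * g) := fun k => by
    rw [e, smul_mul_assoc, mul_smul_comm]
    exact (h.cyc5_mul k).imp (fun a => by rw [a]) fun a => by rw [a, smul_neg]
  have k : ∀ m : ℕ, (g : Matrix ι ι F) ^ m * γ 0 = γ (Fin.ofNat 5 m) * g ^ m ∨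
      (g : Matrix ι ι F) ^ m * γ 0 = -(γ (Fin.ofNat 5 m) * g ^ m) := fun m => by
    induction m with
    | zero => simp
    | succ m ih =>
      have : Fin.ofNat 5 (m + 1) = Fin.ofNat 5 m + 1 := by
        ext; simp [Fin.val_add]
      rw [pow_succ', mul_assoc, this]
      rcases ih with a | a <;> rcases s (Fin.ofNat 5 m) with b | b <;>
        simp only [a, mul_neg, ← mul_assoc, b, neg_mul, neg_neg, true_or, or_true]
  have d : 5 ∣ orderOf g := by
    have := k (orderOf g)
    rw [← Units.val_pow_eq_pow_val, pow_orderOf_eq_one, Units.val_one, one_mul, mul_one] at this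
    by_contra hd
    have n : (0 : Fin 5) ≠ Fin.ofNat 5 (orderOf g) := fun e =>
      hd (Nat.dvd_of_mod_eq_zero (congrArg Fin.val e).symm)
    exact this.elim (h.ne_pm n).1 (h.ne_pm n).2
  have o := orderOf_pow_orderOf_div (orderOf_pos g).ne' d
  refine ⟨_, o ▸ pow_orderOf_eq_one _, fun e => ?_⟩
  rw [e, orderOf_one] at o
  omega

end Fr5

end Cfsg.Agent.H64.C6
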