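import Cfsg.Agent.H64.C6C

/-! Elements of prime order and the normaliser of `4 ∘ 2^(1+4)` in dimension four, II. -/

set_option autoImplicit false
set_option linter.unusedSectionVars false
set_option linter.style.haveILetI false

namespace Cfsg.Agent.H64.C6

open Cfsg Cfsg.Geo Cfsg.Agent.H98 Cfsg.Agent.H67 Matrix Polynomial

variable {ι : Type} [Fintype ι] [DecidableEq ι] {F : Type*} [Field F] [Finite F]

local notation "𝛀" => AlgebraicClosure F

theorem quad_rel {A : Type*} [Ring A] [Algebra F A] {x y : A} {τ : F} (h1 : x * x = τ • x - 1)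
    (h2 : y = τ • 1 - x) (m : A) :
    x * (x * (x * m * y) * y) * y - (τ ^ 2 - 1) • (x * (x * m * y) * y) +
      (τ ^ 2 - 1) • (x * m * y) - m = 0 := by
  have h3 : ∀ X, x * (x * X) = τ • (x * X) - X := fun X => by
    rw [← mul_assoc, h1, sub_mul, smul_mul_assoc, one_mul]
  subst h2
  simp only [mul_sub, sub_mul, mul_smul_comm, smul_mul_assoc, mul_assoc, h1, h3, mul_one,
    smul_sub]
  module

theorem klein (h2 : (2 : F) ≠ 0) (h4 : (1 : Matrix ι ι F).trace = 4) {a b c g : GL ι F}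
    (aa : a * a = 1) (bb : b * b = 1) (cc : c * c = 1) (abc : a * b * c = 1)
    (ta : (a : Matrix ι ι F).trace = 0) (tb : (b : Matrix ι ι F).trace = 0)
    (tc : (c : Matrix ι ι F).trace = 0) (ga : g * a = b * g) (gb : g * b = c * g)
    (gc : g * c = a * g) {l : F} {u v : ι → F} (e : (g : Matrix ι ι F) = l • 1 + vecMulVec u v) :
    False := by
  have ia := inv_eq_of_mul_eq_one_left aa
  have ib := inv_eq_of_mul_eq_one_left bb
  have ic := inv_eq_of_mul_eq_one_left cc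
  have ab : a * b = c := by rw [← ic]; exact eq_inv_of_mul_eq_one_left abc
  have ba : b * a = c := by rw [← ic, ← ab, _root_.mul_inv_rev, ia, ib]
  have ac : a * c = b := by rw [← ab, ← mul_assoc, aa, one_mul]
  have bc : b * c = a := by rw [← ba, ← mul_assoc, bb, one_mul]
  have ca : c * a = b := by rw [← ba, mul_assoc, aa, mul_one]
  have cb : c * b = a := by rw [← ab, mul_assoc, bb, mul_one]
  have V : ∀ {x y z : GL ι F}, x * y = z → (x : Matrix ι ι F) * y = z := fun e =>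
    congrArg Units.val e
  have W : ∀ {x y z : GL ι F}, x * y = z * x → (x : Matrix ι ι F) * y = z * x := fun e =>
    congrArg Units.val e
  have f4 : (4 : F) ≠ 0 := by simpa [show (4 : F) = 2 * 2 by norm_num] using h2
  set E1 : Matrix ι ι F := 1 + a - b - c with h1
  set E2 : Matrix ι ι F := 1 + b - c - a with h2
  set E3 : Matrix ι ι F := 1 + c - a - b with h3
  have g1 : g * E1 = E2 * g := by
    simp only [h1, h2, mul_add, mul_sub, add_mul, sub_mul, W ga, W gb, W gc, mul_one, one_mul]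
  have g2 : g * E2 = E3 * g := by
    simp only [h3, h2, mul_add, mul_sub, add_mul, sub_mul, W ga, W gb, W gc, mul_one, one_mul]
  have m : E3 * E2 = 0 ∧ E3 * E1 = 0 ∧ E2 * E1 = 0 ∧ E2 * E2 = (4 : F) • E2 ∧
      E3 * E3 = (4 : F) • E3 := by
    simp only [h1, h2, h3, mul_add, mul_sub, add_mul, sub_mul, V aa, V bb, V cc, V ab, V ba, V ac,
      V bc, V ca, V cb, mul_one, one_mul, Units.val_one]
    refine ⟨?_, ?_, ?_, ?_, ?_⟩ <;> module
  have k : ∀ {A B : Matrix ι ι F}, A * B = 0 →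
      (A * (g * B) = 0 ↔ A *ᵥ u = 0 ∨ v ᵥ* B = 0) := fun e' => by
    rw [e, add_mul, mul_add, smul_mul_assoc, one_mul, mul_smul_comm, e', smul_zero, zero_add,
      vecMulVec_mul, mul_vecMulVec, vecMulVec_eq_zero]
  have k' : ∀ {A B : Matrix ι ι F}, A.trace = 4 → A * A = (4 : F) • A → g * B = A * g →
      A * (g * B) ≠ 0 := fun t e1 e2 e3 => by
    rw [e2, ← mul_assoc, e1, Units.mul_left_eq_zero, smul_eq_zero, or_iff_right f4] at e3
    exact f4 (by rw [← t, e3, trace_zero])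
  have n1 := (k m.2.2.1).not.1 (k' (by simp only [h2, trace_add, trace_sub, h4, ta, tb, tc]; ring)
    m.2.2.2.1 g1)
  have n2 := (k m.1).not.1 (k' (by simp only [h3, trace_add, trace_sub, h4, ta, tb, tc]; ring)
    m.2.2.2.2 g2)
  exact ((k m.2.1).1 (by rw [g1, ← mul_assoc, m.1, zero_mul])).elim (fun e => n2 (Or.inl e))
    fun e => n1 (Or.inr e)

namespace E4

variable {R : Subgroup (GL ι F)} {i : F} (h : E4 R i)
include h

theorem ne : Nonempty ι := Fintype.card_pos_iff.1 (by rw [h.dim]; omega)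

theorem tr1 : (1 : Matrix ι ι F).trace = 4 := by rw [trace_one, h.dim]; rfl

theorem four : (4 : F) ≠ 0 := by
  simpa [show (4 : F) = 2 * 2 by norm_num] using h.two

theorem i_ne : i ≠ 0 := fun e => by simpa [e] using h.ii

theorem smul_i {A : Matrix ι ι F} (hA : InR R A) : InR R (i • A) := by
  simpa using h.imem.mul hA

theorem neg {A : Matrix ι ι F} (hA : InR R A) : InR R (-A) := by
  simpa [smul_smul, h.ii] using h.smul_i (h.smul_i hA)

theorem scalar {A : Matrix ι ι F} (hA : ∀ B, InR R B → A * B = B * A) : ∃ c : F, A = c • 1 :=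
  scalar_of_comm_of_grpAlg_eq_top h.span fun g hg => hA _ ⟨g, hg, rfl⟩

theorem exists_anti {A : Matrix ι ι F} (hA : InR R A) (n : ∀ c : F, A ≠ c • 1) :
    ∃ B, InR R B ∧ A * B = -(B * A) := by
  by_contra hc
  push Not at hc
  obtain ⟨c, e⟩ := h.scalar fun B hB => (h.pm hA hB).resolve_right (hc B hB)
  exact n c e

theorem tr_zero {A : Matrix ι ι F} (hA : InR R A) (n : ∀ c : F, A ≠ c • 1) : A.trace = 0 := by
  obtain ⟨B, hB, e⟩ := h.exists_anti hA n
  exact tr_anti h.two hB.isUnit e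

theorem norm {A : Matrix ι ι F} (hA : InR R A) :
    ∃ c : F, InR R (c • A) ∧ c • A * c • A = -1 := by
  rcases h.sq hA with e | e
  · exact ⟨i, h.smul_i hA, by rw [smul_mul_smul_comm, e, h.ii, neg_one_smul]⟩
  · exact ⟨1, by rwa [one_smul], by rwa [one_smul]⟩

theorem qp {A B : Matrix ι ι F} (hA : InR R A) (hB : InR R B) (e : A * B = -(B * A)) :
    ∃ c d : F, InR R (c • A) ∧ InR R (d • B) ∧ QP (c • A) (d • B) := by
  obtain ⟨c, c1, c2⟩ := h.norm hA
  obtain ⟨d, d1, d2⟩ := h.norm hB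
  exact ⟨c, d, c1, d1, h.two, c2, d2, by
    rw [smul_mul_smul_comm, smul_mul_smul_comm, e, smul_neg, neg_neg, mul_comm]⟩

theorem one_add {r : Matrix ι ι F} (hr : InR R r) (e : r * r = -1) : InN R (1 + r) := by
  have h2 := h.two
  have a1 : (1 + r) * ((2 : F)⁻¹ • (1 - r)) = 1 := by
    rw [mul_smul_comm, inv_smul_eq_iff₀ h2, add_mul, mul_sub, mul_sub, e]
    simp only [mul_one, one_mul]
    module
  refine ⟨⟨1 + r, _, a1, mul_eq_one_comm.1 a1⟩, Subgroup.mem_normalizer_fintype fun s hs => ?_, rfl⟩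
  have z : ∀ {a b : GL ι F}, b ∈ R → a = b → a ∈ (R : Set (GL ι F)) := fun hb e => e ▸ hb
  rcases h.pm hr ⟨s, hs, rfl⟩ with k | k
  · exact z hs (mul_inv_eq_iff_eq_mul.2 (Units.ext (by simp [mul_add, add_mul, k])))
  · obtain ⟨t, ht, k'⟩ := hr.mul ⟨s, hs, rfl⟩
    refine z ht (mul_inv_eq_iff_eq_mul.2 (Units.ext ?_))
    simp only [Units.val_mul, k', mul_add, add_mul, mul_one, one_mul]
    rw [k, neg_mul, mul_assoc, e]
    simp [add_comm]

theorem split {I J s : Matrix ι ι F} (hI : InR R I) (hJ : InR R J) (q : QP I J) (hs : InR R s) :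
    ∃ m, (m = 1 ∨ m = I ∨ m = J ∨ m = I * J) ∧ InR R (m * s) ∧ Commute (m * s) I ∧
      Commute (m * s) J := by
  have IJ : I * J = -(J * I) := by rw [q.JI, neg_neg]
  rcases h.pm hs hI with a | a <;> rcases h.pm hs hJ with b | b
  · exact ⟨1, by simp, by simpa, by simpa, by simpa⟩
  · refine ⟨I, by simp, hI.mul hs, ?_, ?_⟩
    · rw [Commute, SemiconjBy, mul_assoc, a]
    · rw [Commute, SemiconjBy, mul_assoc, b, q.JI', mul_neg]
  · refine ⟨J, by simp, hJ.mul hs, ?_, ?_⟩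
    · rw [Commute, SemiconjBy, mul_assoc, a, mul_neg, q.JI', neg_neg]
    · rw [Commute, SemiconjBy, mul_assoc, b]
  · refine ⟨I * J, by simp, (hI.mul hJ).mul hs, ?_, ?_⟩
    · rw [Commute, SemiconjBy, mul_assoc, mul_assoc, a, mul_neg, q.JI', neg_neg, mul_assoc]
    · rw [Commute, SemiconjBy, mul_assoc, mul_assoc, b, mul_assoc, q.JI', mul_neg, mul_neg]

theorem basis : ∃ I J I' J', InR R I ∧ InR R J ∧ InR R I' ∧ InR R J' ∧ QP I J ∧ QP I' J' ∧
    Commute I' I ∧ Commute I' J ∧ Commute J' I ∧ Commute J' J := by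
  obtain ⟨x, hx, y, hy, n⟩ := exists_noncomm_of_span (by rw [h.dim]; omega) h.span
  obtain ⟨c, d, hI, hJ, q⟩ := h.qp ⟨x, hx, rfl⟩ ⟨y, hy, rfl⟩
    ((h.pm ⟨x, hx, rfl⟩ ⟨y, hy, rfl⟩).resolve_left fun e => n (Units.ext e))
  generalize c • (x : Matrix ι ι F) = I at hI q
  generalize d • (y : Matrix ι ι F) = J at hJ q
  obtain ⟨a, ha, a1, a2, a3⟩ : ∃ a, InR R a ∧ Commute a I ∧ Commute a J ∧ ∀ c : F, a ≠ c • 1 := by
    by_contra hc
    push Not at hc
    have k : ⊤ ≤ Submodule.span F (Set.range ![1, I, J, I * J]) := by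
      rw [← Algebra.top_toSubmodule, ← h.span, grpAlg_toSubmodule, Submodule.span_le]
      rintro _ ⟨s, hs, rfl⟩
      obtain ⟨m, m1, m2, m3, m4⟩ := h.split hI hJ q ⟨s, hs, rfl⟩
      obtain ⟨c, e⟩ := hc _ m2 m3 m4
      have m5 : m ∈ Submodule.span F (Set.range ![1, I, J, I * J]) := Submodule.subset_span (by
        rcases m1 with rfl | rfl | rfl | rfl
        exacts [⟨0, rfl⟩, ⟨1, rfl⟩, ⟨2, rfl⟩, ⟨3, rfl⟩])
      have m6 : InR R m := by
        rcases m1 with rfl | rfl | rfl | rfl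
        exacts [⟨1, one_mem _, rfl⟩, hI, hJ, hI.mul hJ]
      have e' := congrArg (m * ·) e
      simp only [← mul_assoc, mul_smul_comm, mul_one] at e'
      rcases h.sq m6 with k | k
      · rw [k, one_mul] at e'
        exact (congrArg (· ∈ _) e').mpr (Submodule.smul_mem _ c m5)
      · rw [k, neg_one_mul, neg_eq_iff_eq_neg] at e'
        exact (congrArg (· ∈ _) e').mpr (Submodule.neg_mem _ (Submodule.smul_mem _ c m5))
    have k1 := finrank_range_le_card (R := F) ![1, I, J, I * J]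
    rw [Set.finrank, top_le_iff.1 k, finrank_top, Module.finrank_matrix, h.dim] at k1
    simp at k1
  obtain ⟨s, hs, e⟩ := h.exists_anti ha a3
  obtain ⟨m, m1, m2, m3, m4⟩ := h.split hI hJ q hs
  have m5 : Commute a m := by
    rcases m1 with rfl | rfl | rfl | rfl
    exacts [Commute.one_right _, a1, a2, a1.mul_right a2]
  obtain ⟨c, d, hI', hJ', q'⟩ := h.qp ha m2 (by
    rw [← mul_assoc, m5.eq, mul_assoc, e, mul_neg, mul_assoc])
  exact ⟨I, J, _, _, hI, hJ, hI', hJ', q, q', a1.smul_left _, a2.smul_left _, m3.smul_left _,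
    m4.smul_left _⟩

theorem good_two {x : Matrix ι ι F} (hd : x.det = 1) {z : F} (hx : x ^ 2 = z • 1)
    (nx : ∀ c : F, x ≠ c • 1) : H66.IsSS x ∧ Good R x := by
  have z4 : z ^ 4 = 1 := by simpa [det_pow, hd, h.dim] using (congrArg det hx).symm
  have z0 : z ≠ 0 := by rintro rfl; simp at z4
  have h2 : ((2 : ℕ) : F) ≠ 0 := by exact_mod_cast h.two
  refine ⟨isSS_of_pow_smul h2 z0 hx, ?_⟩
  obtain ⟨I, J, I', J', hI, hJ, hI', hJ', q, q', c1, c2, c3, c4⟩ := h.basis
  have t1 : I.trace = 0 := by simpa using q.tr_I (m := 1) (by simp)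
  haveI := h.ne
  rcases tr_sq4 h.two h.dim z0 hx nx with ⟨a, b⟩ | ⟨a, b⟩
  · have k : ∀ B, InR R B → B ^ 2 = z • 1 → B.trace = 0 → Good R x := fun B hB e t =>
      ⟨B, hB.inN, isSS_of_pow_smul h2 z0 e, cp_sq4 h.two h.dim z0 e hx (fun c hc => by
        rw [hc, trace_smul, h.tr1, smul_eq_mul, mul_eq_zero, or_iff_left h.four] at t
        exact hB.isUnit.ne_zero (by rw [hc, t, zero_smul])) nx (t.trans a.symm), Or.inr hB⟩
    rcases sq_eq_one_iff.1 (b.symm.trans hd) with rfl | rfl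
    · exact k _ (h.smul_i hI) (by rw [_root_.sq, smul_mul_smul_comm, q.II, h.ii]; simp)
        (by rw [trace_smul, t1, smul_zero])
    · exact k _ hI (by rw [_root_.sq, q.II]; simp) t1
  · have ii := h.ii
    have i1 : 1 + i ≠ 0 := fun e => h.two (by linear_combination (1 - i) * e + ii)
    have i2 : i - 1 ≠ 0 := fun e => h.two (by linear_combination (-1 - i) * e + ii)
    have c1' : ∀ X, I' * (I * X) = I * (I' * X) := fun X => by rw [← mul_assoc, c1.eq, mul_assoc]
    have n : InN R ((1 + -I) * (1 + -I') * (1 + i • (I * I'))) :=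
      ((h.one_add (h.neg hI) (by rw [neg_mul_neg, q.II])).mul
        (h.one_add (h.neg hI') (by rw [neg_mul_neg, q'.II]))).mul
        (h.one_add (h.smul_i (hI.mul hI')) (by
          rw [smul_mul_smul_comm, mul_assoc, c1', q.II', q'.II, ii]; simp))
    have e : (1 + -I) * (1 + -I') * (1 + i • (I * I')) =
        (1 + i) • 1 + (i - 1) • I + (i - 1) • I' + (1 + i) • (I * I') := by
      simp only [mul_add, add_mul, mul_one, one_mul, mul_assoc, mul_neg, neg_mul, neg_neg,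
        mul_smul_comm, c1', q.II', q'.II, q.II]
      module
    rw [e] at n
    set P := (1 + i) • 1 + (i - 1) • I + (i - 1) • I' + (1 + i) • (I * I') with hP
    have t2 : I'.trace = 0 := by simpa using q'.tr_I (m := 1) (by simp)
    have t3 : (I * I').trace = 0 := q.tr_I c2.symm.eq
    have p1 : P.trace = 4 * (1 + i) := by
      simp only [hP, trace_add, trace_smul, t1, t2, t3, h.tr1, smul_eq_mul]; ring
    have p2 : (I * P).trace = -4 * (i - 1) := by
      simp only [hP, mul_add, mul_smul_comm, mul_one, q.II, q.II', trace_add, trace_smul, trace_neg,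
        t1, t2, t3, h.tr1, smul_eq_mul]; ring
    have p3 : P * P = (8 * i) • 1 := by
      simp only [hP, mul_add, add_mul, mul_one, one_mul, mul_assoc, mul_neg, neg_neg,
        mul_smul_comm, smul_mul_assoc, c1', c1.eq, q.II', q.II, q'.II, smul_neg]
      match_scalars
      · ring
      · ring
      · ring
      · linear_combination 4 * ii
    have x0 : x.trace ≠ 0 := fun e => z0 (by
      rw [e] at a; exact (mul_eq_zero.1 (by linear_combination -a : 4 * z = 0)).resolve_left h.four)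
    have f4 := h.four
    have c0 : x.trace / (4 * (1 + i)) ≠ 0 := div_ne_zero x0 (mul_ne_zero f4 i1)
    have e2 : ((x.trace / (4 * (1 + i))) • P) ^ 2 = z • 1 := by
      rw [_root_.smul_pow, _root_.sq P, p3, smul_smul, div_pow, a]
      congr 1
      field_simp
      linear_combination (-4 : F) * ii
    refine ⟨_, n.smul c0, isSS_of_pow_smul h2 z0 e2, cp_sq4 h.two h.dim z0 e2 hx (fun c hc => ?_) nx
      (by rw [trace_smul, p1, smul_eq_mul, div_mul_cancel₀ _ (mul_ne_zero f4 i1)]), Or.inl x0⟩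
    have := congrArg (fun X => (I * X).trace) hc
    simp only [mul_smul_comm, trace_smul, p2, mul_one, t1, smul_eq_mul, mul_zero] at this
    exact mul_ne_zero c0 (mul_ne_zero (neg_ne_zero.2 f4) i2) this

theorem inN_uq {I J : Matrix ι ι F} (hI : InR R I) (hJ : InR R J) (q : QP I J) : InN R (uq I J) :=
  ((h.one_add hI q.II).mul (h.one_add hJ q.JJ)).smul (inv_ne_zero (neg_ne_zero.2 h.two))

theorem good_three (h3 : (3 : F) ≠ 0) {x : Matrix ι ι F} (hx : x ^ 3 = 1)
    (ht : (x ^ 2).trace = x.trace) (nx : ∀ c : F, x ≠ c • 1) : Good R x := by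
  obtain ⟨I, J, I', J', hI, hJ, hI', hJ', q, q', c1, c2, c3, c4⟩ := h.basis
  have h2 := h.two
  have h3' : ((3 : ℕ) : F) ≠ 0 := by exact_mod_cast h3
  have a1 : ∀ {I J : Matrix ι ι F}, QP I J → (uq I J).trace = -2 ∧ (uq I J * uq I J).trace = -2 :=
    fun q => by
      have b1 := q.tr_uq (m := 1) (by simp) (by simp)
      have b2 := q.tr_uq_sq (m := 1) (by simp) (by simp)
      rw [mul_one, h.tr1, show (-2 : F)⁻¹ * 4 = -2 by field_simp; norm_num] at b1 b2
      exact ⟨b1, b2⟩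
  rcases tr_cube4 h2 h3 h.dim hx ht nx with a | a
  · have k1 := comm_uq c1.symm c3.symm
    have k2 := comm_uq c2.symm c4.symm
    have k := (comm_uq k1.symm k2.symm).symm
    have e3 : (uq I J * uq I' J') ^ 3 = 1 := by rw [k.mul_pow, q.uq_cube, q'.uq_cube, one_mul]
    have t1 : (uq I J * uq I' J').trace = 1 := by
      rw [q.tr_uq k1.eq k2.eq, (a1 q').1, inv_mul_cancel₀ (neg_ne_zero.2 h2)]
    have t2 : ((uq I J * uq I' J') ^ 2).trace = 1 := by
      rw [k.mul_pow, _root_.sq, _root_.sq, q.tr_uq_sq (k1.mul_right k1).eq (k2.mul_right k2).eq,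
        (a1 q').2, inv_mul_cancel₀ (neg_ne_zero.2 h2)]
    exact ⟨_, (h.inN_uq hI hJ q).mul (h.inN_uq hI' hJ' q'), H66.isSS_of_pow_eq_one h3' e3,
      cp_cube4 h2 h3 h.dim e3 (t2.trans t1.symm) hx ht (t1.trans a.symm),
      Or.inl (by rw [a]; exact one_ne_zero)⟩
  · exact ⟨_, h.inN_uq hI hJ q, H66.isSS_of_pow_eq_one h3' q.uq_cube,
      cp_cube4 h2 h3 h.dim q.uq_cube (by rw [_root_.sq, (a1 q).1, (a1 q).2]) hx ht
        ((a1 q).1.trans a.symm), Or.inl (by rw [a]; exact neg_ne_zero.2 h2)⟩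

theorem exists_five : ∃ g ∈ subgroupNormalizer R, g ^ 5 = 1 ∧ g ≠ 1 := by
  haveI := h.ne
  obtain ⟨I, J, I', J', hI, hJ, hI', hJ', q, q', c1, c2, c3, c4⟩ := h.basis
  have sw : ∀ {A B : Matrix ι ι F}, Commute A B → ∀ X, A * (B * X) = B * (A * X) :=
    fun c X => by rw [← mul_assoc, c.eq, mul_assoc]
  let γ : Fin 5 → Matrix ι ι F := ![I * (I' * J'), J * (I' * J'), I * J * (I' * J'), i • I', i • J']
  have hγ : ∀ k, InR R (γ k) := fun k => by
    fin_cases k
    exacts [hI.mul (hI'.mul hJ'), hJ.mul (hI'.mul hJ'), (hI.mul hJ).mul (hI'.mul hJ'), h.smul_i hI',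
      h.smul_i hJ']
  have f : Fr5 γ := ⟨h.two, fun k => by
    fin_cases k <;> simp [γ, mul_assoc, sw c1, sw c2, sw c3, sw c4, q.JI', q.II, q.JJ,
      q'.JI', q'.II, q'.JJ, smul_smul, h.ii], fun k l hkl => by
    fin_cases k <;> fin_cases l <;> first | exact absurd rfl hkl | skip
    all_goals simp [γ, mul_assoc, sw c1, sw c2, sw c3, sw c4, q.II', q.JJ', q.JI', q'.II',
      q'.JI', q'.JI, q'.JJ]⟩
  have n : ∀ k l, k ≠ l → InN R (1 + γ k * γ l) := fun k l hk =>
    h.one_add ((hγ k).mul (hγ l)) (f.pair_sq hk)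
  obtain ⟨g, hg, e⟩ : InN R (cyc5 γ) := ((n 0 1 (by decide)).mul (n 1 2 (by decide))).mul
    ((n 2 3 (by decide)).mul (n 3 4 (by decide)))
  obtain ⟨k, k1, k2⟩ := f.exists_five (c := 1) (by rw [e, one_smul])
  exact ⟨_, pow_mem hg k, k1, k2⟩

theorem exists_ncomm {g : GL ι F} (n : ∀ c : F, (g : Matrix ι ι F) ≠ c • 1) :
    ∃ s ∈ R, g * s ≠ s * g := by
  by_contra hc
  push Not at hc
  obtain ⟨c, e⟩ := scalar_of_comm_of_grpAlg_eq_top h.span (z := g) fun s hs =>
    congrArg Units.val (hc s hs)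
  exact n c e

theorem tr_comm {g s : GL ι F} (hg : g ∈ subgroupNormalizer R) {r : ℕ} (hr : Odd r) (h1 : g ^ r = 1)
    (hs : s ∈ R) (n : g * s ≠ s * g) :
    ((s⁻¹ * (g * s * g⁻¹) : GL ι F) : Matrix ι ι F).trace = 0 := by
  haveI := h.ne
  have ht : InR R ((s⁻¹ * (g * s * g⁻¹) : GL ι F) : Matrix ι ι F) :=
    ⟨_, mul_mem (inv_mem hs) ((Subgroup.mem_normalizer_iff.1 hg s).1 hs), rfl⟩
  refine h.tr_zero ht fun c hc => n ?_
  obtain ⟨u, hu⟩ := mem_scalars_iff'.1 (mem_scalars_of_coe_eq hc)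
  have e : g * s = scal ι u * (s * g) := by
    rw [← mul_assoc, scal_comm, ← hu]; group
  have k := comm_pow_of_central_comm (scal_comm u) e r
  rw [h1, one_mul, mul_one, eq_comm, mul_eq_right] at k
  have k4 : scal ι u ^ 4 = 1 := Units.ext (by
    rw [← hu, Units.val_pow_eq_pow_val, show 4 = 2 * 2 from rfl, pow_mul, _root_.sq (Units.val _)]
    rcases h.sq ht with a | a <;> rw [a] <;> simp)
  have := pow_gcd_eq_one.2 ⟨k, k4⟩
  rw [show r.gcd 4 = 1 from (Nat.Coprime.pow_right 2 hr.coprime_two_right), pow_one] at this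
  rw [e, this, one_mul]

theorem not_quad {g : GL ι F} (hg : g ∈ subgroupNormalizer R) (h1 : g ^ 5 = 1)
    (n : ∀ c : F, (g : Matrix ι ι F) ≠ c • 1) {τ : F}
    (e : (g : Matrix ι ι F) * g = τ • (g : Matrix ι ι F) - 1) : False := by
  obtain ⟨s, hs, ns⟩ := h.exists_ncomm n
  have k : ∀ j m : ℕ, j * m = 6 →
      ((s⁻¹ * (g ^ j * s * (g ^ j)⁻¹) : GL ι F) : Matrix ι ι F).trace = 0 := fun j m e =>
    h.tr_comm (pow_mem hg j) (by decide : Odd 5) (by rw [← pow_mul, mul_comm, pow_mul, h1, one_pow])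
      hs fun c => ns (by
        have := (Commute.pow_left c m).eq
        rwa [← pow_mul, e, pow_succ, h1, one_mul] at this)
  have k1 := k 1 6 rfl
  have k2 := k 2 3 rfl
  have k3 := k 3 2 rfl
  have q := quad_rel e (y := ((g⁻¹ : GL ι F) : Matrix ι ι F)) (Units.inv_eq_of_mul_eq_one_right (by
    rw [mul_sub, e]; simp)) (s : Matrix ι ι F)
  have q' := congrArg (fun X => (((s⁻¹ : GL ι F) : Matrix ι ι F) * X).trace) q
  simp only [pow_succ, pow_zero, one_mul, _root_.mul_inv_rev, Units.val_mul, mul_assoc] at k1 k2 k3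
  simp only [mul_sub, mul_add, mul_smul_comm, trace_sub, trace_add, trace_smul, mul_assoc, k1, k2,
    k3, Units.inv_mul, h.tr1] at q'
  exact h.four (by simpa using q')

theorem not_rank {g : GL ι F} (hg : g ∈ subgroupNormalizer R) (h1 : g ^ 3 = 1)
    (n : ∀ c : F, (g : Matrix ι ι F) ≠ c • 1) {l : F} {u v : ι → F}
    (e : (g : Matrix ι ι F) = l • 1 + vecMulVec u v) : False := by
  haveI := h.ne
  obtain ⟨s, hs, ns⟩ := h.exists_ncomm n
  have N := fun s => (Subgroup.mem_normalizer_iff.1 hg s).1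
  have t0 := h.tr_comm hg (by decide : Odd 3) h1 hs ns
  have ht : s⁻¹ * (g * s * g⁻¹) ∈ R := mul_mem (inv_mem hs) (N s hs)
  have t2 : (s⁻¹ * (g * s * g⁻¹)) * (s⁻¹ * (g * s * g⁻¹)) = 1 := by
    refine Units.ext ((h.sq ⟨_, ht, rfl⟩).resolve_right fun k => ?_)
    let φ : (ι → F) →ₗ[F] F × F := (dotProductBilin F F v).prod
      ((dotProductBilin F F v).comp (toLin' (s : Matrix ι ι F)))
    obtain ⟨w, w1, w0⟩ := Submodule.exists_mem_ne_zero_of_ne_bot
      (φ.ker_ne_bot_of_finrank_lt (by simp [h.dim]))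
    have w2 : v ⬝ᵥ w = 0 := congrArg Prod.fst w1
    have w3 : v ⬝ᵥ ((s : Matrix ι ι F) *ᵥ w) = 0 := congrArg Prod.snd w1
    have a : ∀ y, v ⬝ᵥ y = 0 → (g : Matrix ι ι F) *ᵥ y = l • y := fun y hy => by
      rw [e, add_mulVec, H99.vmv_mulVec, hy]; simp [smul_mulVec]
    have b : ((s⁻¹ * (g * s * g⁻¹) : GL ι F) : Matrix ι ι F) *ᵥ ((g : Matrix ι ι F) *ᵥ w) =
        (g : Matrix ι ι F) *ᵥ w := by
      rw [mulVec_mulVec, ← Units.val_mul, mul_assoc, inv_mul_cancel_right, Units.val_mul,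
        Units.val_mul, ← mulVec_mulVec, ← mulVec_mulVec, a _ w3, a _ w2, mulVec_smul, mulVec_mulVec,
        Units.inv_mul, one_mulVec]
    have c : _ = _ := congrArg (((s⁻¹ * (g * s * g⁻¹) : GL ι F) : Matrix ι ι F) *ᵥ ·) b
    beta_reduce at c
    rw [mulVec_mulVec, k, b, neg_mulVec, one_mulVec, neg_eq_iff_add_eq_zero, ← two_smul F,
      smul_eq_zero, or_iff_right h.two] at c
    exact w0 (by simpa [mulVec_mulVec] using congrArg (((g⁻¹ : GL ι F) : Matrix ι ι F) *ᵥ ·) c)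
  have t3 : s⁻¹ * (g * s * g⁻¹) * (g * (s⁻¹ * (g * s * g⁻¹)) * g⁻¹) *
      (g * (g * (s⁻¹ * (g * s * g⁻¹)) * g⁻¹) * g⁻¹) = 1 :=
    calc _ = s⁻¹ * g ^ 3 * s * (g ^ 3)⁻¹ := by rw [pow_three]; group
      _ = 1 := by rw [h1]; group
  generalize s⁻¹ * (g * s * g⁻¹) = a at t0 t2 t3
  have cq : ∀ {a : GL ι F}, a * a = 1 → g * a * g⁻¹ * (g * a * g⁻¹) = 1 := fun e => by
    rw [conj_mul, e, mul_one, mul_inv_cancel]
  have ct : ∀ {a : GL ι F}, (a : Matrix ι ι F).trace = 0 →
      ((g * a * g⁻¹ : GL ι F) : Matrix ι ι F).trace = 0 := fun e => by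
    rwa [Units.val_mul, Units.val_mul, trace_mul_cycle, Units.inv_mul, one_mul]
  have g3 : g * (g * (g * a * g⁻¹) * g⁻¹) = a * g :=
    calc _ = g ^ 3 * a * (g ^ 3)⁻¹ * g := by rw [pow_three]; group
      _ = _ := by rw [h1]; group
  exact klein h.two h.tr1 t2 (cq t2) (cq (cq t2)) t3 t0 (ct t0) (ct (ct t0)) (by group) (by group)
    g3 e

theorem not_big {g : GL ι F} (hg : g ∈ subgroupNormalizer R) {r : ℕ} [hr : Fact r.Prime]
    (h7 : 7 ≤ r) (h1 : g ^ r = 1) (n : ∀ c : F, (g : Matrix ι ι F) ≠ c • 1) : False := by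
  haveI := h.ne
  have N := fun s => (Subgroup.mem_normalizer_iff.1 hg s).1
  have mc : ∀ {a b : GL ι F}, a ∈ Subgroup.centralizer {b} ↔ a * b = b * a :=
    Subgroup.mem_centralizer_singleton_iff
  have zc : ∀ b : GL ι F, scalars ι F ≤ Subgroup.centralizer {b} := fun b a ha =>
    mc.2 (scalars_comm ha b)
  have lt : ∀ {A B : Subgroup (GL ι F)}, A ≤ B → ∀ b ∈ B, b ∉ A →
      Nat.card A ∣ Nat.card B ∧ Nat.card A ≠ Nat.card B := fun hAB b hb hb' =>
    ⟨Subgroup.card_dvd_of_le hAB, fun e => hb' (Subgroup.eq_of_le_of_card_ge hAB e.ge ▸ hb)⟩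
  obtain ⟨s, hs, ns⟩ := h.exists_ncomm n
  have a1 := card_modEq_fix N h1
  obtain ⟨a2, a3⟩ := lt (inf_le_left (b := Subgroup.centralizer {g})) s hs fun k =>
    ns (mc.1 k.2).symm
  have a4 := Subgroup.card_dvd_of_le (inf_le_inf_left R (zc g))
  rw [h.card] at a1 a2 a3
  rw [h.cardZ] at a4
  obtain ⟨rfl, a5⟩ : r = 7 ∧ Nat.card (R ⊓ Subgroup.centralizer {g} : Subgroup _) = 8 := by
    generalize Nat.card (R ⊓ Subgroup.centralizer {g} : Subgroup _) = m at a1 a2 a3 a4
    have b1 := Nat.le_of_dvd (by norm_num) a2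
    have b2 := (Nat.modEq_iff_dvd' b1).1 a1.symm
    have b3 := Nat.le_of_dvd (by omega) b2
    have b4 := hr.out
    have b5 : m = 4 ∨ m = 8 ∨ m = 16 ∨ m = 32 := by
      interval_cases m <;> omega
    have b6 : r ≤ 60 := by omega
    rcases b5 with rfl | rfl | rfl | rfl <;> interval_cases r <;> first | omega | norm_num at b4
  obtain ⟨a, ha, na⟩ : ∃ a ∈ R ⊓ Subgroup.centralizer {g}, a ∉ scalars ι F := by
    by_contra hc
    push Not at hc
    have := Subgroup.card_le_of_le (le_inf inf_le_left hc : _ ≤ R ⊓ scalars ι F)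
    rw [a5, h.cardZ] at this
    omega
  obtain ⟨_, ⟨b, hb, rfl⟩, ab⟩ := h.exists_anti ⟨a, ha.1, rfl⟩ fun c e =>
    na (mem_scalars_of_coe_eq e)
  have b1 := card_modEq_fix (D := R ⊓ Subgroup.centralizer {a}) (fun d hd => ⟨N d hd.1, mc.2 (by
    have e1 := mc.1 ha.2
    have e2 := mc.1 hd.2
    calc g * d * g⁻¹ * a = g * d * g⁻¹ * (a * g) * g⁻¹ := by group
      _ = g * (d * a) * g⁻¹ := by rw [e1]; group
      _ = (g * a) * d * g⁻¹ := by rw [e2]; group
      _ = _ := by rw [← e1]; group)⟩) h1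
  obtain ⟨b2, b3⟩ := lt (A := R ⊓ scalars ι F)
    (B := R ⊓ Subgroup.centralizer {a} ⊓ Subgroup.centralizer {g})
    (le_inf (inf_le_inf_left R (zc a)) (inf_le_right.trans (zc g))) a ⟨⟨ha.1, mc.2 rfl⟩, ha.2⟩
    fun k => na k.2
  have b4 := Subgroup.card_dvd_of_le (inf_le_inf_right (Subgroup.centralizer {g})
    (inf_le_left : R ⊓ Subgroup.centralizer {a} ≤ R))
  have na' : ∀ {x y : GL ι F}, (x : Matrix ι ι F) * y = -((y : Matrix ι ι F) * x) → x * y ≠ y * x :=
    fun {x y} e e' => by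
      rw [← Units.val_mul, ← Units.val_mul, e', eq_neg_iff_add_eq_zero, ← two_smul F, smul_eq_zero,
        or_iff_right h.two] at e
      exact Units.ne_zero _ e
  have b5 : ((R ⊓ Subgroup.centralizer {a}).subgroupOf R).index = 2 := by
    refine Subgroup.index_eq_two_iff.2 ⟨⟨b, hb⟩, fun t => ?_⟩
    simp only [Subgroup.mem_subgroupOf, Subgroup.mem_inf, SetLike.coe_mem, true_and, mc,
      Subgroup.coe_mul, mul_mem t.2 hb]
    rcases h.pm ⟨a, ha.1, rfl⟩ ⟨t, t.2, rfl⟩ with k | k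
    · refine Or.inr ⟨Units.ext k.symm, (na' ?_).symm⟩
      rw [Units.val_mul, ← mul_assoc, k, mul_assoc, ab, mul_neg, mul_assoc]
    · refine Or.inl ⟨Units.ext ?_, (na' k).symm⟩
      simp only [Units.val_mul]
      rw [← mul_assoc, k, neg_mul, mul_assoc, mul_assoc, ab, mul_neg, neg_neg]
  have b6 := Subgroup.card_mul_index ((R ⊓ Subgroup.centralizer {a}).subgroupOf R)
  rw [b5, h.card, Nat.card_congr (Subgroup.subgroupOfEquivOfLe inf_le_left).toEquiv] at b6
  rw [h.cardZ] at b2 b3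
  rw [a5] at b4
  have b7 := Nat.le_of_dvd (by norm_num) b4
  rw [Nat.ModEq] at b1
  omega

end E4

end Cfsg.Agent.H64.C6
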