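import Cfsg.Agent.H64.C6D
import Cfsg.Agent.H64.C6B

/-! Elements of prime order and the normaliser of `4 ∘ 2^(1+4)` in dimension four, III. -/

set_option autoImplicit false
set_option linter.unusedSectionVars false
set_option linter.style.haveILetI false

namespace Cfsg.Agent.H64.C6

open Cfsg Cfsg.Geo Cfsg.Agent.H98 Cfsg.Agent.H67 Cfsg.Agent.H85.L3 Matrix Polynomial

theorem ord5 (p : ℕ) : orderOf (p : ZMod 5) = 4 ↔ p % 5 = 2 ∨ p % 5 = 3 := by
  have k : ∀ a : ZMod 5, orderOf a = 4 ↔ a.val = 2 ∨ a.val = 3 := fun a => by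
    rw [orderOf_eq_iff (by norm_num)]
    revert a
    decide
  rw [k, ZMod.val_natCast]

variable {ι : Type} [Fintype ι] [DecidableEq ι] {F : Type*} [Field F] [Fintype F]
  {R K : Subgroup (GL ι F)}

local notation "𝛀" => AlgebraicClosure F

theorem cast_ne {p : ℕ} [hp : Fact p.Prime] [CharP F p] {k : ℕ} (hk : k.Prime) (h : p ≠ k) :
    (k : F) ≠ 0 := fun e =>
  h ((Nat.prime_dvd_prime_iff_eq hp.out hk).1 ((CharP.cast_eq_zero_iff F p k).1 e))

theorem ns_conj {x : GL ι F} (nx : ∀ c : F, (x : Matrix ι ι F) ≠ c • 1) (g : GL ι F) (c : F) :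
    ((g⁻¹ * x * g : GL ι F) : Matrix ι ι F) ≠ c • 1 := fun e => nx c (by
  have := congrArg (fun X => (g : Matrix ι ι F) * X * ((g⁻¹ : GL ι F) : Matrix ι ι F)) e
  simpa [mul_assoc] using this)

theorem pow_conj {x : GL ι F} {r : ℕ} (h : x ^ r = 1) (g : GL ι F) : (g⁻¹ * x * g) ^ r = 1 := by
  have := conj_pow (i := r) (a := g⁻¹) (b := x)
  rwa [inv_inv, h, mul_one, inv_mul_cancel] at this

/-- reduction to elements whose `r`-th power is trivial -/
theorem red_odd {r : ℕ} (hr : Odd r) (hK : ∀ u : Fˣ, u ^ 4 = 1 → scal ι u ∈ K)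
    (H : ∀ y ∈ K, y ^ r = 1 → (∀ c : F, (y : Matrix ι ι F) ≠ c • 1) →
      ∃ g ∈ K, g⁻¹ * y * g ∈ subgroupNormalizer R)
    {x : GL ι F} (hx : x ∈ K) {z : F} (hz : ((x ^ r : GL ι F) : Matrix ι ι F) = z • 1)
    (z4 : z ^ 4 = 1) (nx : ∀ c : F, (x : Matrix ι ι F) ≠ c • 1) :
    ∃ g ∈ K, g⁻¹ * x * g ∈ subgroupNormalizer R := by
  have z0 : z ≠ 0 := by rintro rfl; simp at z4
  let u := Units.mk0 z z0
  have u4 : u ^ 4 = 1 := Units.ext z4
  have e : x ^ r = scal ι u := Units.ext (hz.trans (coe_scal u).symm)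
  obtain ⟨g, hg, k⟩ := H (scal ι (u ^ (3 * r)) * x)
    (mul_mem (hK _ (by rw [← pow_mul, mul_comm, pow_mul, u4, one_pow])) hx) (by
      obtain ⟨m, rfl⟩ := hr
      rw [Commute.mul_pow (scal_comm _ _), e, ← scal_pow, ← scal_mul, ← pow_mul, ← pow_succ,
        show 3 * (2 * m + 1) * (2 * m + 1) + 1 = 4 * (3 * m * m + 3 * m + 1) by ring, pow_mul, u4,
        one_pow, scal_one]) fun c e => nx ((u ^ (3 * r))⁻¹ * c) (by
      rw [Units.val_mul, coe_scal, smul_mul_assoc, one_mul] at e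
      rw [← smul_smul, ← e, smul_smul]; simp [z0, u])
  refine ⟨g, hg, ?_⟩
  rw [← mul_assoc, ← scal_comm, mul_assoc, mul_assoc, ← mul_assoc g⁻¹] at k
  exact (Subgroup.mul_mem_cancel_left _ (scal_mem_N _)).1 k

theorem z4_of_sl (hn : Fintype.card ι = 4) {x : GL ι F} (hx : x ∈ specialLinear ι F) {r : ℕ} {z : F}
    (hz : ((x ^ r : GL ι F) : Matrix ι ι F) = z • 1) : z ^ 4 = 1 := by
  have := H99.mem_sl.1 (pow_mem hx r)
  rwa [hz, det_smul, det_one, mul_one, hn] at this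

theorem tr_sq_of_map {x : Matrix ι ι F} (hx : x ^ 3 = 1) {φ : 𝛀 → 𝛀}
    (h1 : (ev 𝛀 x).map φ = ev 𝛀 x) (h2 : ∀ y, y ^ 3 = 1 → φ y = y⁻¹) :
    (x ^ 2).trace = x.trace := by
  apply (algebraMap F 𝛀).injective
  rw [← sum_ev_inv (A := x) (by rw [← pow_succ', hx]), ← sum_ev]
  congr 1
  refine Eq.trans (Multiset.map_congr rfl fun y hy => (h2 y ?_).symm) h1
  simpa using pow_eq_of_mem_ev (c := 1) (by rw [hx, one_smul]) hy

theorem ns_of_five (h5 : ¬ 5 ∣ Fintype.card F - 1) [Nonempty ι] {g : GL ι F} (h1 : g ^ 5 = 1)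
    (h2 : g ≠ 1) (c : F) : (g : Matrix ι ι F) ≠ c • 1 := fun e => by
  obtain ⟨u, rfl⟩ := mem_scalars_iff'.1 (mem_scalars_of_coe_eq e)
  rw [← scal_pow, ← scal_one] at h1
  have a := pow_gcd_eq_one.2 ⟨scal_injective h1, pow_card_eq_one' (x := u)⟩
  rw [Nat.card_units, Nat.card_eq_fintype_card,
    (Nat.Prime.coprime_iff_not_dvd Nat.prime_five).2 h5, pow_one] at a
  exact h2 (by rw [a, scal_one])

theorem mem_ev_frob {A : Matrix ι ι F} {x : 𝛀} (hx : x ∈ ev 𝛀 A) :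
    x ^ Fintype.card F ∈ ev 𝛀 A := by
  rw [← ev_map_frob]
  exact Multiset.mem_map_of_mem _ hx

theorem five_of_quad {A : Type*} [Ring A] [Algebra F A] {x : A} {τ : F} (h : τ ^ 2 + τ - 1 = 0)
    (h1 : x * x = τ • x - 1) : x ^ 5 = 1 := by
  have h3 : ∀ X, x * (x * X) = τ • (x * X) - X := fun X => by
    rw [← mul_assoc, h1, sub_mul, smul_mul_assoc, one_mul]
  simp only [pow_succ', pow_zero, mul_one, h1, mul_sub, mul_smul_comm, smul_sub]
  match_scalars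
  · linear_combination (τ ^ 2 - τ - 1) * h
  · linear_combination (1 - τ) * h

theorem exists_zeta (h5 : (5 : F) ≠ 0) {k : ℕ} (hk : k % 5 = 1 ∨ k % 5 = 4) :
    ∃ z : 𝛀, z ^ 5 = 1 ∧ z ≠ 1 ∧ (z ^ k = z ∨ z ^ k = z⁻¹) := by
  haveI : NeZero ((5 : ℕ) : 𝛀) := ⟨by
    rw [← map_natCast (algebraMap F 𝛀), _root_.map_ne_zero]; exact_mod_cast h5⟩
  obtain ⟨z, hz⟩ := HasEnoughRootsOfUnity.exists_primitiveRoot 𝛀 5
  refine ⟨z, hz.pow_eq_one, hz.ne_one (by norm_num), ?_⟩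
  rw [pow_eq_pow_mod _ hz.pow_eq_one]
  refine hk.imp (fun e => by rw [e, pow_one]) fun e => ?_
  rw [e]
  exact eq_inv_of_mul_eq_one_left (by rw [← pow_succ, hz.pow_eq_one])

theorem tau_of_zeta {z : 𝛀} (h1 : z ^ 5 = 1) (h2 : z ≠ 1)
    (h3 : z ^ Fintype.card F = z ∨ z ^ Fintype.card F = z⁻¹) :
    ∃ τ : F, algebraMap F 𝛀 τ = z + z⁻¹ ∧ τ ^ 2 + τ - 1 = 0 := by
  obtain ⟨τ, h⟩ := exists_algebraMap_eq_of_pow_card (F := F) (x := z + z⁻¹) (by
    have := map_add (FiniteField.frobeniusAlgHom F 𝛀) z z⁻¹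
    simp only [FiniteField.coe_frobeniusAlgHom] at this
    rw [this, inv_pow]
    rcases h3 with e | e <;> rw [e]
    rw [inv_inv, add_comm])
  refine ⟨τ, h, (algebraMap F 𝛀).injective ?_⟩
  have i : z⁻¹ = z ^ 4 := inv_eq_of_mul_eq_one_right (by rw [← pow_succ', h1])
  rw [map_sub, map_add, map_pow, h, i, map_one, map_zero]
  refine mul_left_cancel₀ (sub_ne_zero.2 h2) ?_
  linear_combination (z ^ 4 - z ^ 3 + 2 * z - 1) * h1

theorem exists_tau {p : ℕ} [Fact p.Prime] [CharP F p] (hF : Fintype.card F = p)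
    (h : ¬ (p % 5 = 2 ∨ p % 5 = 3)) : ∃ τ : F, τ ^ 2 + τ - 1 = 0 := by
  by_cases h5 : p = 5
  · subst h5
    exact ⟨2, by have := CharP.cast_eq_zero F 5; push_cast at this; linear_combination this⟩
  have hp : p.Prime := Fact.out
  have : p % 5 ≠ 0 := fun e =>
    h5 ((Nat.prime_dvd_prime_iff_eq Nat.prime_five hp).1 (Nat.dvd_of_mod_eq_zero e)).symm
  obtain ⟨z, h1, h2, h3⟩ := exists_zeta (F := F) (by exact_mod_cast cast_ne Nat.prime_five h5)
    (k := p) (by omega)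
  obtain ⟨τ, -, h⟩ := tau_of_zeta h1 h2 (hF ▸ h3)
  exact ⟨τ, h⟩

namespace E4

variable {i : F} (h : E4 R i)
include h

theorem no_rank {x : GL ι F} (h1 : x ^ 3 = 1) (n : ∀ c : F, (x : Matrix ι ι F) ≠ c • 1) {l : F}
    {u v : ι → F} (e : (x : Matrix ι ι F) = l • 1 + vecMulVec u v) (g : GL ι F) :
    g⁻¹ * x * g ∉ subgroupNormalizer R := fun hg =>
  h.not_rank hg (pow_conj h1 g) (ns_conj n g) (l := l) (by
    rw [Units.val_mul, Units.val_mul, e, mul_add, add_mul, mul_vecMulVec, vecMulVec_mul,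
      mul_smul_comm, smul_mul_assoc, mul_one, Units.inv_mul])

theorem no_quad {x : GL ι F} {τ : F} (ht : τ ^ 2 + τ - 1 = 0)
    (n : ∀ c : F, (x : Matrix ι ι F) ≠ c • 1)
    (e : (x : Matrix ι ι F) * x = τ • (x : Matrix ι ι F) - 1) (g : GL ι F) :
    g⁻¹ * x * g ∉ subgroupNormalizer R := fun hg =>
  h.not_quad hg (pow_conj (Units.ext (five_of_quad ht e)) g) (ns_conj n g) (τ := τ) (by
    rw [← Units.val_mul, show g⁻¹ * x * g * (g⁻¹ * x * g) = g⁻¹ * (x * x) * g by group]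
    simp only [Units.val_mul, e, mul_sub, sub_mul, mul_smul_comm, smul_mul_assoc, mul_one,
      Units.inv_mul])

theorem good_five (h5 : (5 : F) ≠ 0) {x g : GL ι F} (hg : g ∈ subgroupNormalizer R) {k : ℕ}
    (hk : k % 5 = 2 ∨ k % 5 = 3) (x5 : x ^ 5 = 1) (g5 : g ^ 5 = 1)
    (nx : ∀ c : F, (x : Matrix ι ι F) ≠ c • 1) (ng : ∀ c : F, (g : Matrix ι ι F) ≠ c • 1)
    (ex : ∀ y ∈ ev 𝛀 (x : Matrix ι ι F), y ^ k ∈ ev 𝛀 (x : Matrix ι ι F))
    (eg : ∀ y ∈ ev 𝛀 (g : Matrix ι ι F), y ^ k ∈ ev 𝛀 (g : Matrix ι ι F)) :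
    Good R (x : Matrix ι ι F) := by
  have e1 := ev_five h.two h5 h.dim (congrArg Units.val x5) nx hk ex
  have e2 := ev_five h.two h5 h.dim (congrArg Units.val g5) ng hk eg
  refine ⟨g, ⟨g, hg, rfl⟩, H66.isSS_of_pow_eq_one (m := 5) (by exact_mod_cast h5)
    (congrArg Units.val g5), charpoly_eq_of_ev (e2.trans e1.symm), Or.inl fun t => ?_⟩
  have sm := sum_ev (x : Matrix ι ι F)
  rw [e1, t, map_zero] at sm
  haveI : NeZero ((5 : ℕ) : 𝛀) := ⟨by
    rw [← map_natCast (algebraMap F 𝛀), _root_.map_ne_zero]; exact_mod_cast h5⟩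
  obtain ⟨z, hz⟩ := HasEnoughRootsOfUnity.exists_primitiveRoot 𝛀 5
  have k : (primitiveRoots 5 𝛀).val = {z, z ^ 2, z ^ 3, z ^ 4} := by
    refine Multiset.eq_of_le_of_card_le ((Multiset.le_iff_subset (Finset.nodup _)).2 fun y hy => ?_)
      (by rw [Finset.card_val, hz.card_primitiveRoots]; exact (by decide : 4 ≤ Nat.totient 5))
    have hy' := (mem_primitiveRoots (by norm_num)).1 hy
    obtain ⟨i, hi, rfl⟩ := hz.eq_pow_of_pow_eq_one hy'.pow_eq_one
    interval_cases i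
    · exact absurd (pow_zero z) (hy'.ne_one (by norm_num))
    all_goals simp
  have k2 := hz.geom_sum_eq_zero (by norm_num)
  rw [k] at sm
  simp only [Finset.sum_range_succ, Finset.sum_range_zero, Multiset.insert_eq_cons,
    Multiset.sum_cons, Multiset.sum_singleton] at sm k2
  exact one_ne_zero (by linear_combination k2 - sm : (1 : 𝛀) = 0)

end E4

theorem diag_om {ω : F} (h : Om ω) : ∃ x : GL (Fin 4) F,
    (x : Matrix (Fin 4) (Fin 4) F) = diagonal ![1, ω, ω, ω] ∧ x ∈ specialLinear (Fin 4) F ∧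
    x ^ 3 = 1 ∧ (∀ c : F, (x : Matrix (Fin 4) (Fin 4) F) ≠ c • 1) ∧
    (x : Matrix (Fin 4) (Fin 4) F) = ω • 1 + vecMulVec ![1 - ω, 0, 0, 0] ![1, 0, 0, 0] := by
  have d : (diagonal ![1, ω, ω, ω]).det = 1 := by
    rw [det_diagonal, Fin.prod_univ_four]; simp; linear_combination h.cube
  refine ⟨GeneralLinearGroup.mkOfDetNeZero _ (d.trans_ne one_ne_zero), rfl, H99.mem_sl.2 d, Units.ext ?_,
    fun c e => h.ne_one ?_, ?_⟩
  · change diagonal ![1, ω, ω, ω] ^ 3 = 1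
    rw [diagonal_pow, ← diagonal_one]
    congr 1
    ext j; fin_cases j <;> simp [h.cube]
  · have a := congrFun (congrFun e 0) 0
    have b := congrFun (congrFun e 1) 1
    change diagonal ![1, ω, ω, ω] 0 0 = _ at a
    change diagonal ![1, ω, ω, ω] 1 1 = _ at b
    simp at a b
    rw [b, a]
  · change diagonal ![1, ω, ω, ω] = _
    ext j k; fin_cases j <;> fin_cases k <;> simp

theorem quad_sl (τ : F) : ∃ x ∈ specialLinear (Fin 4) F,
    (∀ c : F, (x : Matrix (Fin 4) (Fin 4) F) ≠ c • 1) ∧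
    (x : Matrix (Fin 4) (Fin 4) F) * x = τ • (x : Matrix (Fin 4) (Fin 4) F) - 1 := by
  let A : Matrix (Fin 4) (Fin 4) F := !![0, -1, 0, 0; 1, τ, 0, 0; 0, 0, 0, -1; 0, 0, 1, τ]
  have d : A.det = 1 := by simp [A, det_succ_row_zero, Fin.sum_univ_succ, Fin.succAbove]
  refine ⟨GeneralLinearGroup.mkOfDetNeZero _ (d.trans_ne one_ne_zero), H99.mem_sl.2 d, fun c e => ?_, ?_⟩
  · have a := congrFun (congrFun e 1) 0
    change A 1 0 = _ at a
    simp [A] at a
  · change A * A = τ • A - 1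
    ext j k; fin_cases j <;> fin_cases k <;> simp [A] <;> ring

section unitary

variable {L : Type*} [Field L] [Fintype L] {q n : ℕ} [hL : Fact (Fintype.card L = q ^ 2)]
  {T : Subgroup (GL (Fin n) L)}

theorem unitary_of_coprime [NeZero n] (hU : T ≤ GU n L q) (hs : grpAlg T = ⊤) {g : GL (Fin n) L}
    (hg : g ∈ subgroupNormalizer T) {k : ℕ} (h1 : g ^ k = 1)
    (hk : k.Coprime (Fintype.card L - 1)) : g ∈ GU n L q := by
  obtain ⟨c, hc⟩ := scalar_of_comm_of_grpAlg_eq_top hs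
    (z := cjT q (g : Matrix (Fin n) (Fin n) L) * g) fun t ht => by
      have h1 := cjT_of_mem (hU ((Subgroup.mem_normalizer_iff.1 hg t⁻¹).1 (inv_mem ht)))
      have h2 := cjT_of_mem (hU (inv_mem ht))
      have h3 : g * t⁻¹ * g⁻¹ * g = g * t⁻¹ := by group
      have h4 := congrArg (fun y : GL (Fin n) L => cjT q (y : Matrix (Fin n) (Fin n) L)) h3
      simp only [Units.val_mul (g * t⁻¹ * g⁻¹), Units.val_mul g t⁻¹, cjT_mul, h1, h2,
        inv_inv] at h4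
      rw [← mul_assoc, ← h4, mul_assoc, mul_assoc, ← Units.val_mul, ← Units.val_mul]
      congr 2
      group
  have h2 : cjT q (g : Matrix (Fin n) (Fin n) L) =
      c • ((g⁻¹ : GL (Fin n) L) : Matrix (Fin n) (Fin n) L) := by
    rw [← Units.mul_left_inj g, hc, smul_mul_assoc, Units.inv_mul]
  have h3 := cjT_pow (q := q) (g : Matrix (Fin n) (Fin n) L) k
  rw [h2, _root_.smul_pow, ← Units.val_pow_eq_pow_val, ← Units.val_pow_eq_pow_val, inv_pow, h1,
    inv_one, Units.val_one, cjT_one] at h3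
  have h4 : c ^ k = 1 := by simpa using (congrFun (congrFun h3 0) 0).symm
  have c0 : c ≠ 0 := by
    rintro rfl
    exact (isUnit_cjT (q := q) g.isUnit).ne_zero (by rw [h2, zero_smul])
  have := pow_gcd_eq_one.2 ⟨h4, FiniteField.pow_card_sub_one_eq_one c c0⟩
  rw [hk, pow_one] at this
  exact (H10.mem_GU_iff g).2 ((isIsom_iff_cjT _).2 (by rw [hc, this, one_smul]))

theorem twist_ev {g : GL (Fin n) L} (hg : g ∈ GU n L q) :
    (ev (AlgebraicClosure L) (g : Matrix (Fin n) (Fin n) L)).map (fun x => x ^ (-(q : ℤ))) =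
      ev (AlgebraicClosure L) (g : Matrix (Fin n) (Fin n) L) :=
  ev_map_twist ((isIsom_iff_cjT _).1 ((H10.mem_GU_iff g).1 hg))

theorem mem_ev_twist {g : GL (Fin n) L} (hg : g ∈ GU n L q) (h5 : g ^ 5 = 1)
    (y : AlgebraicClosure L) (hy : y ∈ ev (AlgebraicClosure L) (g : Matrix (Fin n) (Fin n) L)) :
    y ^ (4 * q) ∈ ev (AlgebraicClosure L) (g : Matrix (Fin n) (Fin n) L) := by
  have a := Multiset.mem_map_of_mem (fun x => x ^ (-(q : ℤ))) hy
  have b : y ^ 5 = 1 := by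
    simpa using pow_eq_of_mem_ev (c := 1) (by rw [one_smul]; exact congrArg Units.val h5) hy
  rwa [twist_ev hg, _root_.zpow_neg, zpow_natCast, ← inv_pow,
    inv_eq_of_mul_eq_one_right (by rw [← pow_succ', b] : y * y ^ 4 = 1), ← pow_mul] at a

theorem scal_mem_GU {u : Lˣ} (h : u ^ (q + 1) = 1) : scal (Fin n) u ∈ GU n L q :=
  (H10.mem_GU_iff _).2 ((isIsom_iff_cjT _).2 (by
    rw [coe_scal, cjT_smul, cjT_one, smul_mul_smul_comm, mul_comm, H10.mul_cj_eq_pow,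
      ← Units.val_pow_eq_pow_val, h]
    simp))

theorem quad_su (h5 : (5 : L) ≠ 0) (hq : q % 5 = 1 ∨ q % 5 = 4) :
    ∃ τ : L, τ ^ 2 + τ - 1 = 0 ∧ ∃ x ∈ GU 4 L q ⊓ specialLinear (Fin 4) L,
    (∀ c : L, (x : Matrix (Fin 4) (Fin 4) L) ≠ c • 1) ∧
    (x : Matrix (Fin 4) (Fin 4) L) * x = τ • (x : Matrix (Fin 4) (Fin 4) L) - 1 := by
  obtain ⟨z, h1, h2, h3⟩ := exists_zeta (F := L) h5 hq
  have z0 : z ≠ 0 := by rintro rfl; simp at h1
  obtain ⟨τ, t1, t2⟩ := tau_of_zeta h1 h2 (Or.inl (by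
    rw [hL.out, sq, pow_mul]
    rcases h3 with e | e
    · rw [e, e]
    · rw [e, inv_pow, e, inv_inv]))
  obtain ⟨B, b1, b2, b3⟩ := exists_isIsom_ev_eq (K := L) (q := q) (n := 4) (s := {z, z, z⁻¹, z⁻¹})
    (by
      rcases h3 with e | e <;> simp [e]
      exact (add_comm ({z, z} : Multiset _) {z⁻¹, z⁻¹}).symm) rfl (by simp [z0.symm])
  refine ⟨τ, t2, H10.mkGU B b1, ⟨(H10.mkGU B b1).2, H99.mem_sl.2 ((algebraMap L (AlgebraicClosure L)).injective ?_)⟩,
    fun c e => ?_, ?_⟩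
  · rw [← prod_ev (Ω := AlgebraicClosure L), H10.coe_mkGU, b3]
    simp [z0]
  · have k := fun y (hy : y ∈ ev (AlgebraicClosure L) B) =>
      pow_eq_of_mem_ev (k := 1) (c := c) (by rw [pow_one]; exact e) hy
    have a := (k z (by simp [b3])).trans (k z⁻¹ (by simp [b3])).symm
    rw [pow_one, pow_one] at a
    have a2 : z ^ 2 = 1 := by rw [sq]; nth_rewrite 1 [a]; exact inv_mul_cancel₀ z0
    exact h2 (by linear_combination h1 - (z ^ 3 + z) * a2)
  · have := (b2.aeval_eq_zero_iff_roots (AlgebraicClosure L) (X ^ 2 - C τ * X + 1)).2 fun y hy => by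
      have := mem_ev_iff.2 hy
      rw [b3] at this
      simp only [map_add, map_sub, map_mul, map_pow, aeval_X, aeval_C, map_one, t1]
      rcases (by simpa using this : y = z ∨ y = z⁻¹) with rfl | rfl <;> field_simp <;> ring
    simp only [map_add, map_sub, map_mul, aeval_X, aeval_C, map_one,
      Algebra.algebraMap_eq_smul_one, smul_mul_assoc, one_mul, sq] at this
    rw [H10.coe_mkGU, ← sub_eq_zero, ← this]
    abel

end unitary

end Cfsg.Agent.H64.C6
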