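import Cfsg.Agent.H64.C6E
import Cfsg.Agent.DIM4.ExtraA

/-! Elements of prime order and the normaliser of `2^(1+4)` in `Sp₄`. -/

set_option autoImplicit false
set_option linter.unusedSectionVars false
set_option linter.style.haveILetI false

namespace Cfsg.Agent.H64.C6

open Cfsg Cfsg.Geo Cfsg.Agent.H98 Cfsg.Agent.H67 Cfsg.Agent.DIM4 Matrix Polynomial

variable {F : Type*} [Field F] [Fintype F] {γ : Fin 5 → M4 F}

/-- `g` permutes the frame up to signs -/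
def Pm (γ : Fin 5 → M4 F) (g : G4 F) : Prop := ∀ i, ∃ j,
  (g : M4 F) * γ i * ((g⁻¹ : G4 F) : M4 F) = γ j ∨ (g : M4 F) * γ i * ((g⁻¹ : G4 F) : M4 F) = -γ j

theorem fr5_of_orth (h2 : (2 : F) ≠ 0) (h : Orth (Rt (spGL 2 F)) γ) : Fr5 γ :=
  ⟨h2, fun k => (h.1 k).2.1, fun k l hk => anti_of_perp h2 (h.1 l).1 (h.1 k).1 (h.2 l k hk.symm)⟩

theorem Pm.exists_perm (f : Fr5 γ) {g : G4 F} (h : Pm γ g) {r : ℕ} (hr : Odd r) (h1 : g ^ r = 1) :
    ∃ σ : Fin 5 → Fin 5, (∀ i, σ^[r] i = i) ∧ (∀ i, σ i = i → (g : M4 F) * γ i = γ i * g) ∧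
      ∀ (k : ℕ) i, ∃ c : F, ((g ^ k : G4 F) : M4 F) * γ i * (((g ^ k)⁻¹ : G4 F) : M4 F) =
        c • γ (σ^[k] i) := by
  choose σ hσ using h
  have k : ∀ (k : ℕ) i, ((g ^ k : G4 F) : M4 F) * γ i * (((g ^ k)⁻¹ : G4 F) : M4 F) = γ (σ^[k] i) ∨
      ((g ^ k : G4 F) : M4 F) * γ i * (((g ^ k)⁻¹ : G4 F) : M4 F) = -γ (σ^[k] i) := fun k i => by
    induction k with
    | zero => simp
    | succ k ih =>
      rw [pow_succ', conj_conj, Function.iterate_succ_apply']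
      rcases ih with a | a <;> rcases hσ (σ^[k] i) with b | b <;>
        simp only [a, Matrix.mul_neg, Matrix.neg_mul, b, neg_neg, true_or, or_true]
  refine ⟨σ, fun i => ?_, fun i hi => ?_, fun n i => ?_⟩
  · have := k r i
    rw [h1, inv_one, Units.val_one, one_mul, mul_one] at this
    by_contra n
    exact this.elim (f.ne_pm (Ne.symm n)).1 (f.ne_pm (Ne.symm n)).2
  · have := hσ i
    rw [hi] at this
    rcases this with a | a
    · rw [← a, Units.inv_mul_cancel_right, a]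
    · have b : ∀ n : ℕ, ((g ^ n : G4 F) : M4 F) * γ i * (((g ^ n)⁻¹ : G4 F) : M4 F) =
          (-1 : F) ^ n • γ i := fun n => by
        induction n with
        | zero => simp
        | succ n ih =>
          rw [pow_succ', conj_conj, ih, mul_smul_comm, smul_mul_assoc, a, pow_succ, mul_smul,
            neg_one_smul]
      have c := b r
      rw [h1, hr.neg_one_pow, inv_one, Units.val_one, one_mul, mul_one, neg_one_smul,
        eq_neg_iff_add_eq_zero, ← two_smul F, smul_eq_zero, or_iff_right f.two] at c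
      have := f.sq i
      rw [c, zero_mul] at this
      exact absurd this zero_ne_one
  · rcases k n i with a | a
    exacts [⟨1, by rw [a, one_smul]⟩, ⟨-1, by rw [a, neg_one_smul]⟩]

theorem scalar_of_frame (h2 : (2 : F) ≠ 0) (h : Orth (Rt (spGL 2 F)) γ) {A : M4 F}
    (hA : ∀ i, A * γ i = γ i * A) : ∃ c : F, A = c • 1 :=
  DIM4.scalar_of_comm fun v hv => by
    rw [h.expand (std_sp h2).rs hv, Finset.mul_sum, Finset.sum_mul]
    exact Finset.sum_congr rfl fun i _ => by rw [mul_smul_comm, smul_mul_assoc, hA]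

theorem Pm.not_big (h2 : (2 : F) ≠ 0) (h : Orth (Rt (spGL 2 F)) γ) {g : G4 F} (hg : Pm γ g) {r : ℕ}
    (hr : r.Prime) (h7 : 7 ≤ r) (h1 : g ^ r = 1) (n : ∀ c : F, (g : M4 F) ≠ c • 1) : False := by
  obtain ⟨σ, a, b, -⟩ := hg.exists_perm (fr5_of_orth h2 h) (hr.odd_of_ne_two (by omega)) h1
  obtain ⟨c, e⟩ := scalar_of_frame h2 h fun i => b i (by
    have k1 := Function.minimalPeriod_le_card (f := σ) (x := i)
    rw [Fintype.card_fin] at k1
    exact Function.minimalPeriod_eq_one_iff_isFixedPt.1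
      (((Nat.dvd_prime hr).1 (Function.IsPeriodicPt.minimalPeriod_dvd (a i))).resolve_right
        (by omega)))
  exact n c e

theorem Pm.not_quad (h2 : (2 : F) ≠ 0) (h : Orth (Rt (spGL 2 F)) γ) {g : G4 F} (hg : Pm γ g)
    (h1 : g ^ 5 = 1) (n : ∀ c : F, (g : M4 F) ≠ c • 1) {τ : F}
    (e : (g : M4 F) * g = τ • (g : M4 F) - 1) : False := by
  have f := fr5_of_orth h2 h
  obtain ⟨σ, a, b, c⟩ := hg.exists_perm f (by decide) h1
  have k : ∀ σ : Fin 5 → Fin 5, (∀ i, σ^[5] i = i) →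
      (∀ i, σ i = i) ∨ ∃ i, σ^[1] i ≠ i ∧ σ^[2] i ≠ i ∧ σ^[3] i ≠ i := by decide +kernel
  rcases k σ a with k | ⟨i, k1, k2, k3⟩
  · obtain ⟨c, e⟩ := scalar_of_frame h2 h fun i => b i (k i)
    exact n c e
  have t : ∀ n : ℕ, σ^[n] i ≠ i →
      (γ i * (((g ^ n : G4 F) : M4 F) * γ i * (((g ^ n)⁻¹ : G4 F) : M4 F))).trace = 0 := fun n hn => by
    obtain ⟨d, hd⟩ := c n i
    rw [hd, mul_smul_comm, trace_smul, tr_anti h2 (IsUnit.of_mul_eq_one _ (f.sq i))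
      (by rw [mul_assoc, f.anti _ _ hn, mul_neg]), smul_zero]
  have t1 := t 1 k1
  have t2 := t 2 k2
  have t3 := t 3 k3
  have q := quad_rel e (y := ((g⁻¹ : G4 F) : M4 F)) (Units.inv_eq_of_mul_eq_one_right (by
    rw [mul_sub, e]; simp)) (γ i)
  have q' := congrArg (fun X => (γ i * X).trace) q
  simp only [pow_succ, pow_zero, one_mul, _root_.mul_inv_rev, Units.val_mul, mul_assoc] at t1 t2 t3
  simp only [mul_sub, mul_add, mul_smul_comm, trace_sub, trace_add, trace_smul, mul_assoc, t1, t2,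
    t3, f.sq, trace_one4] at q'
  exact four_ne h2 (by simpa using q')

/-- an element of order three moving only a plane -/
def x3 (F : Type*) [Field F] : M4 F :=
  fromBlocks !![1, 0; 0, 0] !![0, 0; 0, -1] !![0, 0; 0, 1] !![1, 0; 0, -1]

theorem x3_sp : DIM4.adj (x3 F) * x3 F = 1 := by
  rw [x3, adj_fromBlocks, fromBlocks_multiply, ← fromBlocks_one]
  congr 1 <;> ext i j <;> fin_cases i <;> fin_cases j <;> simp [Matrix.mul_apply]

theorem x3_cube : x3 F ^ 3 = 1 := by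
  rw [pow_three, x3, fromBlocks_multiply, fromBlocks_multiply, ← fromBlocks_one]
  congr 1 <;> ext i j <;> fin_cases i <;> fin_cases j <;> simp

theorem x3_ns (c : F) : x3 F ≠ c • 1 := fun e => by
  simpa [x3] using congrFun (congrFun e (Sum.inr 1)) (Sum.inl 1)

theorem x3_no (h2 : (2 : F) ≠ 0) {A B : M4 F} (hA : A * x3 F = x3 F * A) (hB : B * x3 F = x3 F * B)
    (h : A * B = -(B * A)) (hu : IsUnit (A * B)) : False := by
  let w : I4 → F := (x3 F - 1) *ᵥ Pi.single (Sum.inl 1) 1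
  have k : ∀ v : I4 → F, (x3 F - 1) *ᵥ v = v (Sum.inl 1) • w + v (Sum.inr 1) • x3 F *ᵥ w := fun v => by
    ext (i | i) <;> fin_cases i <;>
      simp [w, x3, mulVec, dotProduct, Fin.sum_univ_two, one_apply] <;> ring
  have k1 : ∀ {A : M4 F}, A * x3 F = x3 F * A → ∃ a b : F, A *ᵥ w = a • w + b • x3 F *ᵥ w :=
    fun {A} hA => ⟨_, _, by
      rw [← k (A *ᵥ Pi.single (Sum.inl 1) 1), mulVec_mulVec, mulVec_mulVec, mul_sub, sub_mul, hA, mul_one, one_mul]⟩
  obtain ⟨a, b, e1⟩ := k1 hA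
  obtain ⟨c, d, e2⟩ := k1 hB
  have c1 : ∀ {A : M4 F}, A * x3 F = x3 F * A → A *ᵥ (x3 F *ᵥ w) = x3 F *ᵥ (A *ᵥ w) := fun hA => by
    rw [mulVec_mulVec, hA, ← mulVec_mulVec]
  have e3 : (A * B) *ᵥ w = (B * A) *ᵥ w := by
    simp only [← mulVec_mulVec, e1, e2, mulVec_add, mulVec_smul, c1 hA, c1 hB]
    module
  rw [← neg_neg (B * A), ← h, neg_mulVec, eq_neg_iff_add_eq_zero, ← two_smul F, smul_eq_zero,
    or_iff_right h2] at e3
  obtain ⟨u, hu⟩ := hu
  have e4 : w = 0 := by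
    simpa [← hu, mulVec_mulVec] using congrArg (((u⁻¹ : G4 F) : M4 F) *ᵥ ·) e3
  simpa [w, x3, mulVec, dotProduct] using congrFun e4 (Sum.inr 1)

theorem Pm.not_three (h2 : (2 : F) ≠ 0) (h : Orth (Rt (spGL 2 F)) γ) {x g : G4 F}
    (e : (x : M4 F) = x3 F) (hg : Pm γ (g⁻¹ * x * g)) : False := by
  have f := fr5_of_orth h2 h
  obtain ⟨σ, a, b, -⟩ := hg.exists_perm f (by decide : Odd 3)
    (pow_conj (Units.ext (by rw [Units.val_pow_eq_pow_val, e, x3_cube]; rfl)) g)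
  have k : ∀ σ : Fin 5 → Fin 5, (∀ i, σ^[3] i = i) → ∃ i j, i ≠ j ∧ σ i = i ∧ σ j = j := by
    decide +kernel
  obtain ⟨i, j, n, hi, hj⟩ := k σ a
  have c : ∀ i, σ i = i → (g : M4 F) * γ i * ((g⁻¹ : G4 F) : M4 F) * x3 F =
      x3 F * ((g : M4 F) * γ i * ((g⁻¹ : G4 F) : M4 F)) := fun i hi => by
    have := congrArg (fun X => (g : M4 F) * X * ((g⁻¹ : G4 F) : M4 F)) (b i hi)
    simp only [Units.val_mul, e, mul_assoc, Units.mul_inv, mul_one, Units.mul_inv_cancel_left] at this ⊢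
    exact this.symm
  refine x3_no h2 (c i hi) (c j hj) (by
    rw [DIM4.conj_mul, DIM4.conj_mul, f.anti i j n, Matrix.mul_neg, Matrix.neg_mul]) ?_
  rw [DIM4.conj_mul]
  exact (g.isUnit.mul ((IsUnit.of_mul_eq_one _ (f.sq i)).mul (IsUnit.of_mul_eq_one _ (f.sq j)))).mul
    (Units.isUnit _)

theorem quad_sp (τ : F) : ∃ x ∈ spGL 2 F, (∀ c : F, (x : M4 F) ≠ c • 1) ∧
    (x : M4 F) * x = τ • (x : M4 F) - 1 := by
  have a : DIM4.adj (fromBlocks !![0, -1; 1, τ] 0 0 !![τ, -1; 1, 0]) *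
      fromBlocks !![0, -1; 1, τ] 0 0 !![τ, -1; 1, 0] = 1 := by
    rw [adj_fromBlocks, fromBlocks_multiply, ← fromBlocks_one]
    congr 1 <;> ext i j <;> fin_cases i <;> fin_cases j <;> simp [Matrix.mul_apply]
  refine ⟨_, spOf_mem _ a, fun c e => ?_, ?_⟩
  · simpa using congrFun (congrFun e (Sum.inl 1)) (Sum.inl 0)
  · rw [coe_spOf, fromBlocks_multiply]
    ext (i | i) (j | j) <;> fin_cases i <;> fin_cases j <;> simp <;> ring

theorem sp_fin {x y : G4 F} (hx : x ∈ spGL 2 F) (hy : y ∈ spGL 2 F) {N : ℕ} (hN : (N : F) ≠ 0)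
    (h1 : x ^ N = 1) (h2 : y ^ N = 1) (h : (x : M4 F).charpoly = (y : M4 F).charpoly) :
    ∃ g ∈ spGL 2 F, g⁻¹ * x * g = y := by
  obtain ⟨P, hP⟩ := H66.exists_GL_conj_of_charpoly_eq
    (H66.isSS_of_pow_eq_one hN (congrArg Units.val h1))
    (H66.isSS_of_pow_eq_one hN (congrArg Units.val h2)) h
  exact sp_conj_of_sim hx hy hN h2 ((isConj_iff_sim _ _).1 ⟨P, hP⟩)

theorem pm_of_sp {x : G4 F} (hx : x ∈ spGL 2 F) {z : F} (e : (x : M4 F) = z • 1) :
    z = 1 ∨ z = -1 := by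
  have := DIM4.mem_spGL_iff.1 hx
  rw [e, DIM4.adj_smul, DIM4.adj_one, smul_mul_smul_comm, one_mul] at this
  exact mul_self_eq_one_iff.1 (by simpa using congrFun (congrFun this (Sum.inl 0)) (Sum.inl 0))

theorem pm_of_mul {g : G4 F}
    (h : ∀ i, ∃ j, (g : M4 F) * γ i = γ j * g ∨ (g : M4 F) * γ i = -(γ j * g)) : Pm γ g := fun i =>
  (h i).imp fun _ => Or.imp (fun a => by rw [a, Units.mul_inv_cancel_right]) fun a => by
    rw [a, Matrix.neg_mul, Units.mul_inv_cancel_right]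

theorem sp_two (h2 : (2 : F) ≠ 0) (h : Orth (Rt (spGL 2 F)) γ) {x : G4 F} (hx : x ∈ spGL 2 F)
    {z : F} (e : ((x ^ 2 : G4 F) : M4 F) = z • 1) (nx : ∀ c : F, (x : M4 F) ≠ c • 1) :
    ∃ g ∈ spGL 2 F, g⁻¹ * x * g ∈ spGL 2 F ∧ Pm γ (g⁻¹ * x * g) := by
  have f := fr5_of_orth h2 h
  have hz := pm_of_sp (pow_mem hx 2) e
  have z0 : z ≠ 0 := by rcases hz with rfl | rfl <;> simp
  have p4 : ∀ {y : G4 F}, (y : M4 F) ^ 2 = z • 1 → y ^ 4 = 1 := fun {y} e => Units.ext (by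
    rw [Units.val_pow_eq_pow_val, show 4 = 2 * 2 from rfl, pow_mul, e]
    rcases hz with rfl | rfl <;> simp)
  have key : ∀ y ∈ spGL 2 F, Pm γ y → (y : M4 F) ^ 2 = z • 1 → (y : M4 F).trace = 0 →
      (x : M4 F).trace = 0 → ∃ g ∈ spGL 2 F, g⁻¹ * x * g ∈ spGL 2 F ∧ Pm γ (g⁻¹ * x * g) := by
    intro y hy py y2 ty tx
    obtain ⟨g, hg, k⟩ := sp_fin hx hy (N := 4) (by exact_mod_cast four_ne h2) (p4 e) (p4 y2)
      (cp_sq4 h2 (by simp) z0 e y2 nx (fun c hc => by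
        rw [hc, trace_smul, trace_one4, smul_eq_mul, mul_eq_zero, or_iff_left (four_ne h2)] at ty
        exact y.ne_zero (by rw [hc, ty, zero_smul])) (tx.trans ty.symm))
    exact ⟨g, hg, k ▸ hy, k ▸ py⟩
  have pm : ∀ i j, γ i * γ j = γ j * γ i ∨ γ i * γ j = -(γ j * γ i) := fun i j => by
    by_cases k : i = j
    exacts [Or.inl (by rw [k]), Or.inr (f.anti i j k)]
  obtain ⟨a, ha, ea⟩ := (h.1 0).2.2
  obtain ⟨b, hb, eb⟩ := (h.1 1).2.2
  have e' : (x : M4 F) * x = z • 1 := by rw [← e, sq, Units.val_mul]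
  rcases hz with rfl | rfl
  · refine key a ha (pm_of_mul fun i => ⟨i, ea ▸ pm 0 i⟩) (by rw [ea, sq, f.sq, one_smul])
      (ea ▸ (h.1 0).1.2) (mem_W_of_invol h2 (DIM4.mem_spGL_iff.1 hx) (by simpa using e')
        (by simpa using nx 1) (by simpa using nx (-1))).2
  · refine key (a * b) (mul_mem ha hb) (pm_of_mul fun i => ⟨i, ?_⟩)
      (by rw [Units.val_mul, ea, eb, sq, f.pair_sq (by decide), neg_one_smul]) ?_ ?_
    · rw [Units.val_mul, ea, eb, mul_assoc]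
      rcases pm 0 i with k | k <;> rcases pm 1 i with l | l <;>
        simp only [l, Matrix.mul_neg, ← mul_assoc, k, Matrix.neg_mul, neg_neg, true_or, or_true]
    · rw [Units.val_mul, ea, eb]
      exact tr_anti h2 (IsUnit.of_mul_eq_one _ (f.sq 0))
        (by rw [mul_assoc, f.anti 1 0 (by decide), mul_neg])
    · have t := trace_inv_sp hx
      rw [Units.inv_eq_of_mul_eq_one_right (a := -(x : M4 F)) (by rw [mul_neg, e']; simp),
        trace_neg] at t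
      exact (mul_eq_zero.1 (by linear_combination -t : 2 * (x : M4 F).trace = 0)).resolve_left h2

theorem sp_five (h2 : (2 : F) ≠ 0) (h : Orth (Rt (spGL 2 F)) γ) :
    ∃ g ∈ spGL 2 F, Pm γ g ∧ ∃ k, (g ^ k) ^ 5 = 1 ∧ g ^ k ≠ 1 := by
  have f := fr5_of_orth h2 h
  have t : ∀ i j, i ≠ j → DIM4.adj (1 + γ i * γ j) * (1 + γ i * γ j) = (2 : F) • 1 := fun i j n => by
    rw [adj_add, DIM4.adj_one, DIM4.adj_mul, (h.1 i).1.1, (h.1 j).1.1, f.anti j i n.symm, add_mul,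
      Matrix.neg_mul, mul_add, mul_add, f.pair_sq n]
    simp only [mul_one, one_mul]
    module
  have m : ∀ {A B : M4 F} {a b : F}, DIM4.adj A * A = a • 1 → DIM4.adj B * B = b • 1 →
      DIM4.adj (A * B) * (A * B) = (a * b) • 1 := fun {A B a b} e1 e2 => by
    rw [DIM4.adj_mul, mul_assoc, ← mul_assoc (DIM4.adj A), e1, smul_mul_assoc, one_mul,
      mul_smul_comm, e2, smul_smul]
  have f4 := four_ne h2
  have a : DIM4.adj ((4 : F)⁻¹ • cyc5 γ) * ((4 : F)⁻¹ • cyc5 γ) = 1 := by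
    rw [DIM4.adj_smul, smul_mul_smul_comm, cyc5, m (m (t 0 1 (by decide)) (t 1 2 (by decide)))
      (m (t 2 3 (by decide)) (t 3 4 (by decide))), smul_smul,
      show (4 : F)⁻¹ * 4⁻¹ * (2 * 2 * (2 * 2)) = 1 by field_simp; norm_num, one_smul]
  refine ⟨_, spOf_mem _ a, pm_of_mul fun i => ⟨i + 1, ?_⟩, f.exists_five (coe_spOf _ a)⟩
  rw [coe_spOf, smul_mul_assoc, mul_smul_comm]
  exact (f.cyc5_mul i).imp (fun a => by rw [a]) fun a => by rw [a, smul_neg]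

end Cfsg.Agent.H64.C6
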