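import Cfsg.Agent.H29.FormNil

/-! Uniqueness, transport and existence of the chain data of a skew nilpotent map (odd
characteristic). -/

set_option autoImplicit false

namespace Cfsg.Agent.H64

open Module Finset H29

variable {F V : Type*} [Field F] [AddCommGroup V] [Module F V] {β : LinearMap.BilinForm F V}
  {n n' : End F V} {ν : F} {e N : ℕ} {a a' : ℕ → ℕ} {s s' : ℕ → Bool} {v v' : ℕ → ℕ → V}

theorem ch_decomp (h : Ch β ν e n ⊤ N a s v) (x : V) :
    ∃ (c : ℕ → ℕ → F) (z : V), x = ∑ i ∈ range N, ∑ k ∈ range (a i), c i k • v i k + n z := by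
  have hx : x ∈ Submodule.span F {x | ∃ i < N, ∃ k < a i, ∃ j, x = (n ^ j) (v i k)} :=
    h.span ▸ Submodule.mem_top
  induction hx using Submodule.span_induction with
  | mem x hx =>
    obtain ⟨i, hi, k, hk, j, rfl⟩ := hx
    rcases j with _ | j
    · refine ⟨fun i' k' => if i' = i ∧ k' = k then 1 else 0, 0, ?_⟩
      rw [sum_eq_single i (fun i' _ h => by simp [h]) (by simp [hi]),
        sum_eq_single k (fun k' _ h => by simp [h]) (by simp [hk])]
      simp
    · exact ⟨0, (n ^ j) (v i k), by simp [pow_succ']⟩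
  | zero => exact ⟨0, 0, by simp⟩
  | add x y _ _ hx hy =>
    obtain ⟨c, z, rfl⟩ := hx
    obtain ⟨c', z', rfl⟩ := hy
    refine ⟨c + c', z + z', ?_⟩
    simp only [Pi.add_apply, add_smul, sum_add_distrib, map_add]
    abel
  | smul t x _ hx =>
    obtain ⟨c, z, rfl⟩ := hx
    refine ⟨t • c, t • z, ?_⟩
    simp only [Pi.smul_apply, smul_eq_mul, mul_smul, smul_add, smul_sum, map_smul]

theorem ch_rad (hν : ν ≠ 0) (h : Ch β ν e n ⊤ N a s v) (hn : Skew β n ⊤) {i : ℕ} {x : V}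
    (hx : (n ^ (i + 1)) x = 0) (h0 : ∀ k < a i, β ((n ^ i) x) (v i k) = 0) {y : V}
    (hy : (n ^ (i + 1)) y = 0) : β ((n ^ i) x) y = 0 := by
  obtain ⟨c, z, rfl⟩ := ch_decomp h x
  have h1 : ∀ j, ∀ y, (n ^ (j + 1)) y = 0 → β ((n ^ j) (n z)) y = 0 := fun j y hy => by
    have := hn.pow (j + 1) (x := z) (y := y) trivial trivial
    rw [hy, map_zero, pow_succ n, End.mul_apply] at this
    exact (mul_eq_zero.1 this.symm).resolve_left (by simp)
  have h2 : ∀ j < N, i ≤ j → ∀ k < a j, c j k = 0 := fun j hj hij k hk => by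
    have hk' := (h.valid j hj).prt_lt hk
    have e1 : β ((n ^ j) (∑ i ∈ range N, ∑ k ∈ range (a i), c i k • v i k + n z))
        (v j (prt (e + j) k)) = 0 := by
      rcases hij.eq_or_lt with rfl | hij
      · exact h0 _ hk'
      · rw [pow_apply_eq_zero hx hij, LinearMap.map_zero₂]
    rw [map_add, LinearMap.map_add₂, h1 j _ (h.nil j hj _ hk'), add_zero, map_sum,
      LinearMap.map_sum₂, sum_eq_single j (fun i' hi' hne => by
        rw [map_sum, LinearMap.map_sum₂]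
        refine sum_eq_zero fun k' hk'' => ?_
        rw [map_smul, LinearMap.map_smul₂, h.gram _ (mem_range.1 hi') _ (mem_range.1 hk'') _ hj _ hk',
          if_neg (fun h => hne h.1), smul_zero]) (by simp [hj]), map_sum, LinearMap.map_sum₂,
      sum_congr rfl (g := fun l => c j l * stdB ν (e + j) (s j) l (prt (e + j) k)) (fun l hl => by
        rw [map_smul, LinearMap.map_smul₂, h.gram _ hj _ (mem_range.1 hl) _ hj _ hk',
          if_pos ⟨rfl, rfl⟩, smul_eq_mul]), (h.valid j hj).sum_stdB hk', prt_prt] at e1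
    exact (mul_eq_zero.1 e1).resolve_right (val_ne_zero hν _ _ _)
  have h3 : (n ^ i) (∑ i ∈ range N, ∑ k ∈ range (a i), c i k • v i k) = 0 := by
    rw [map_sum]
    refine sum_eq_zero fun j hj => ?_
    rw [map_sum]
    refine sum_eq_zero fun k hk => ?_
    rcases le_or_gt i j with hij | hij
    · rw [h2 j (mem_range.1 hj) hij k (mem_range.1 hk), zero_smul, map_zero]
    · rw [map_smul, pow_apply_eq_zero (h.nil j (mem_range.1 hj) k (mem_range.1 hk)) hij, smul_zero]
  rw [map_add, h3, zero_add, h1 i y hy]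

/-- the standard matrix -/
def stdM (ν : F) (d a : ℕ) (s : Bool) : Matrix (Fin a) (Fin a) F := .of fun k k' => stdB ν d s k k'

theorem stdM_det_ne (hν : ν ≠ 0) {d a : ℕ} {s : Bool} (h : Valid d a s) :
    (stdM ν d a s).det ≠ 0 := fun h0 => by
  obtain ⟨c, hc, h1⟩ := Matrix.exists_vecMul_eq_zero_iff.2 h0
  refine hc (funext fun k => ?_)
  have := congrFun h1 ⟨_, h.prt_lt k.2⟩
  rw [Matrix.vecMul, dotProduct, sum_eq_single k _ (by simp)] at this
  · simpa [stdM, stdB, prt_prt, val_ne_zero hν] using this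
  · intro k' _ hne
    simp only [stdM, Matrix.of_apply, stdB, prt_prt]
    rw [if_neg (fun h => hne (Fin.ext h)), mul_zero]

theorem stdM_det_even {d a : ℕ} {s : Bool} (h : Valid d a s) (hd : d % 2 = 0) :
    (stdM ν d a s).det = if s then ν else 1 := by
  have : stdM ν d a s = Matrix.diagonal fun k : Fin a => if (k : ℕ) = 0 ∧ s then ν else 1 := by
    ext k k'
    simp only [stdM, Matrix.of_apply, stdB, prt, H29.val, hd, if_true, Matrix.diagonal_apply, Fin.ext_iff]
    split_ifs <;> simp_all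
  rw [this, Matrix.det_diagonal]
  split_ifs with hs
  · have : 0 < a := Nat.pos_of_ne_zero fun h0 => by simp [h.1 h0] at hs
    rw [prod_eq_single ⟨0, this⟩ (fun k _ hk => by
      simp [show (k : ℕ) ≠ 0 from fun h => hk (Fin.ext h)]) (by simp)]
    simp [hs]
  · simp [hs]

theorem ch_factor (hν : ν ≠ 0) (hs : ∀ x y, β y x = (-1) ^ e * β x y) (h : Ch β ν e n ⊤ N a s v)
    (h' : Ch β ν e n ⊤ N a' s' v') (hn : Skew β n ⊤) {i : ℕ} (hi : i < N) :
    ∃ P : Matrix (Fin (a' i)) (Fin (a i)) F,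
      stdM ν (e + i) (a' i) (s' i) = P * stdM ν (e + i) (a i) (s i) * P.transpose := by
  choose c hc using fun k' : ℕ => (h.valid i hi).solve hν fun k => β ((n ^ i) (v' i k')) (v i k)
  have sym : ∀ x y, β ((n ^ i) y) x = (-1) ^ e * (-1) ^ i * β ((n ^ i) x) y := fun x y => by
    rw [hs, hn.pow i trivial trivial, mul_assoc]
  have hu : ∀ k', (n ^ (i + 1)) (∑ l ∈ range (a i), c k' l • v i l) = 0 := fun k' => by
    rw [map_sum]
    exact sum_eq_zero fun l hl => by rw [map_smul, h.nil i hi l (mem_range.1 hl), smul_zero]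
  have hg : ∀ k', ∀ k < a i, β ((n ^ i) (∑ l ∈ range (a i), c k' l • v i l)) (v i k) =
      ∑ l ∈ range (a i), c k' l * stdB ν (e + i) (s i) l k := fun k' k hk => by
    rw [map_sum, LinearMap.map_sum₂]
    exact sum_congr rfl fun l hl => by
      rw [map_smul, LinearMap.map_smul₂, h.gram _ hi _ (mem_range.1 hl) _ hi _ hk,
        if_pos ⟨rfl, rfl⟩, smul_eq_mul]
  have hr : ∀ k' < a' i, ∀ y, (n ^ (i + 1)) y = 0 → β ((n ^ i) (v' i k')) y =
      β ((n ^ i) (∑ l ∈ range (a i), c k' l • v i l)) y := fun k' hk' y hy => by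
    rw [← sub_eq_zero, ← LinearMap.map_sub₂, ← map_sub]
    refine ch_rad hν h hn (by rw [map_sub, h'.nil i hi k' hk', hu, sub_zero]) (fun k hk => ?_) hy
    rw [map_sub, LinearMap.map_sub₂, hg k' k hk, hc k' k hk, sub_self]
  refine ⟨.of fun k' l => c k' l, Matrix.ext fun k k' => ?_⟩
  have e1 := h'.gram i hi k k.2 i hi k' k'.2 i
  rw [if_pos ⟨rfl, rfl⟩, hr k k.2 _ (h'.nil i hi k' k'.2), sym, hr k' k'.2 _ (hu k), ← sym,
    map_sum] at e1
  rw [stdM, Matrix.of_apply, ← e1, Matrix.mul_apply, ← Fin.sum_univ_eq_sum_range]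
  refine sum_congr rfl fun l _ => ?_
  rw [map_smul, hg k l l.2, Matrix.mul_apply, ← Fin.sum_univ_eq_sum_range, smul_eq_mul, mul_comm]
  rfl

theorem ch_unique (hν : ¬ IsSquare ν) (hs : ∀ x y, β y x = (-1) ^ e * β x y)
    (h : Ch β ν e n ⊤ N a s v) (h' : Ch β ν e n ⊤ N a' s' v') (hn : Skew β n ⊤) {i : ℕ}
    (hi : i < N) : a i = a' i ∧ s i = s' i := by
  have hν0 : ν ≠ 0 := fun h => hν (h ▸ IsSquare.zero)
  have le : ∀ {a a' : ℕ → ℕ} {s s' : ℕ → Bool} {v v' : ℕ → ℕ → V}, Ch β ν e n ⊤ N a s v →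
      Ch β ν e n ⊤ N a' s' v' → a' i ≤ a i := fun {a a' s s' v v'} h h' => by
    obtain ⟨P, hP⟩ := ch_factor hν0 hs h h' hn hi
    have h1 := Matrix.rank_of_isUnit _ ((Matrix.isUnit_iff_isUnit_det _).2
      (stdM_det_ne hν0 (h'.valid i hi)).isUnit)
    rw [hP, Fintype.card_fin] at h1
    rw [← h1]
    exact (Matrix.rank_mul_le_left _ _).trans ((Matrix.rank_le_card_width _).trans (by simp))
  have ha : a i = a' i := le_antisymm (le h' h) (le h h')
  refine ⟨ha, ?_⟩
  rcases Nat.mod_two_eq_zero_or_one (e + i) with hd | hd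
  · obtain ⟨P, hP⟩ := ch_factor hν0 hs h h' hn hi
    have h1 := stdM_det_even (ν := ν) (h.valid i hi) hd
    have h2 := stdM_det_even (ν := ν) (h'.valid i hi) hd
    generalize a' i = b at P hP h2 ha
    subst ha
    rw [hP, Matrix.det_mul, Matrix.det_mul, Matrix.det_transpose, h1] at h2
    have hP0 : P.det ≠ 0 := fun h0 => by
      rw [h0, mul_zero] at h2
      split_ifs at h2
      · exact hν0 h2.symm
      · exact zero_ne_one h2
    cases h3 : s i <;> cases h4 : s' i <;> simp only [h3, h4] at h2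
    · rfl
    · exact absurd ⟨P.det, by simpa using h2.symm⟩ hν
    · refine absurd ⟨P.det⁻¹, ?_⟩ hν
      simp only [if_true, Bool.false_eq_true, if_false] at h2
      field_simp
      linear_combination h2
    · rfl
  · rw [((h.valid i hi).2 hd).2, ((h'.valid i hi).2 hd).2]

theorem ch_transport {V' : Type*} [AddCommGroup V'] [Module F V'] {β' : LinearMap.BilinForm F V'}
    {n' : End F V'} (E : V ≃ₗ[F] V') (hE : ∀ x y, β' (E x) (E y) = β x y)
    (hc : ∀ x, E (n x) = n' (E x)) (h : Ch β ν e n ⊤ N a s v) :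
    Ch β' ν e n' ⊤ N a s fun i k => E (v i k) := by
  have hp : ∀ j x, E ((n ^ j) x) = (n' ^ j) (E x) := fun j => by
    induction j with
    | zero => simp
    | succ j ih => intro x; rw [pow_succ, pow_succ, End.mul_apply, End.mul_apply, ih, hc]
  refine ⟨h.valid, ?_, fun i hi k hk => by rw [← hp, h.nil i hi k hk, map_zero],
    fun i hi k hk i' hi' k' hk' j => by rw [← hp, hE, h.gram i hi k hk i' hi' k' hk']⟩
  have := congrArg (Submodule.map E.toLinearMap) h.span
  rw [Submodule.map_span, Submodule.map_top, LinearEquiv.range] at this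
  refine top_le_iff.1 (this.ge.trans (Submodule.span_mono ?_))
  rintro _ ⟨_, ⟨i, hi, k, hk, j, rfl⟩, rfl⟩
  exact ⟨i, hi, k, hk, j, hp _ _⟩

theorem skew_transport {V' : Type*} [AddCommGroup V'] [Module F V'] {β' : LinearMap.BilinForm F V'}
    {n' : End F V'} (E : V ≃ₗ[F] V') (hE : ∀ x y, β' (E x) (E y) = β x y)
    (hc : ∀ x, E (n x) = n' (E x)) (h : Skew β n ⊤) : Skew β' n' ⊤ :=
  ⟨fun _ _ => trivial, fun x _ y _ => by
    obtain ⟨x, rfl⟩ := E.surjective x
    obtain ⟨y, rfl⟩ := E.surjective y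
    rw [← hc, ← hc, hE, hE, h.skew x trivial y trivial]⟩

theorem ch_conj (hβ : β.Nondegenerate) (h : Ch β ν e n ⊤ N a s v) (hn : Skew β n ⊤)
    (h' : Ch β ν e n' ⊤ N a s v') (hn' : Skew β n' ⊤) :
    ∃ E : V ≃ₗ[F] V, (∀ x y, β (E x) (E y) = β x y) ∧ ∀ x, E (n x) = n' (E x) := by
  let J := {p : ℕ × ℕ × ℕ // p.1 < N ∧ p.2.1 < a p.1}
  have sp : ∀ {n : End F V} {v}, Ch β ν e n ⊤ N a s v → Submodule.span F (Set.range fun p : J =>
      (n ^ p.1.2.2) (v p.1.1 p.1.2.1)) = ⊤ := fun {n v} h => by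
    refine top_le_iff.1 (h.span.ge.trans (Submodule.span_mono ?_))
    rintro _ ⟨i, hi, k, hk, j, rfl⟩
    exact ⟨⟨(i, k, j), hi, hk⟩, rfl⟩
  obtain ⟨E, h5, h6⟩ := exists_equiv_of_gram hβ.1 (sp h) (sp h') (fun p r =>
    (h'.gram' hn' p.2.1 p.2.2 r.2.1 r.2.2 _ _).trans (h.gram' hn p.2.1 p.2.2 r.2.1 r.2.2 _ _).symm)
  refine ⟨E, h5, fun x => ?_⟩
  have hx : x ∈ Submodule.span F {x | ∃ i < N, ∃ k < a i, ∃ j, x = (n ^ j) (v i k)} :=
    h.span ▸ Submodule.mem_top
  induction hx using Submodule.span_induction with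
  | mem x hx =>
    obtain ⟨i, hi, k, hk, j, rfl⟩ := hx
    have e1 : ∀ j, E ((n ^ j) (v i k)) = (n' ^ j) (v' i k) := fun j => h6 ⟨(i, k, j), hi, hk⟩
    rw [← End.mul_apply, ← pow_succ', e1, e1, pow_succ', End.mul_apply]
  | zero => simp
  | add x y _ _ hx hy => simp only [map_add, hx, hy]
  | smul c x _ hx => simp only [map_smul, hx]

theorem ch_pow_eq_zero (h : Ch β ν e n ⊤ N a s v) : n ^ N = 0 := by
  refine LinearMap.ext_on h.span ?_
  rintro _ ⟨i, hi, k, hk, j, rfl⟩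
  rw [← End.mul_apply, ← pow_add]
  exact pow_apply_eq_zero (h.nil i hi k hk) (by omega)

theorem stdB_swap (ν : F) (d : ℕ) (s : Bool) (k k' : ℕ) :
    stdB ν d s k' k = (-1) ^ d * stdB ν d s k k' := by
  rcases Nat.mod_two_eq_zero_or_one d with hd | hd
  · rw [(Nat.even_iff.2 hd).neg_one_pow, one_mul]
    simp only [stdB, prt, H29.val, hd, if_true]
    by_cases h : k = k'
    · simp [h]
    · simp [h, Ne.symm h]
  · rw [(Nat.odd_iff.2 hd).neg_one_pow]
    simp only [stdB, prt, H29.val, hd, one_ne_zero, if_false]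
    split_ifs <;> first | omega | simp

/-- the basis vectors of the model space -/
def mw (F : Type*) [Field F] (N : ℕ) (a : ℕ → ℕ) (i k j : ℕ) : CI N a → F :=
  fun r => if (r.1 : ℕ) = i ∧ (r.2.1 : ℕ) = k ∧ (r.2.2 : ℕ) = j then 1 else 0

theorem mw_eq (p : CI N a) : mw F N a p.1 p.2.1 p.2.2 = Pi.single p 1 := by
  funext r
  obtain ⟨i, k, j⟩ := p
  obtain ⟨i', k', j'⟩ := r
  simp only [mw, Pi.single_apply]
  congr 1
  refine propext ⟨fun h => ?_, fun h => by cases h; exact ⟨rfl, rfl, rfl⟩⟩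
  obtain rfl := Fin.ext h.1
  obtain rfl := Fin.ext h.2.1
  obtain rfl := Fin.ext h.2.2
  rfl

theorem mw_eq_zero {i k j : ℕ} (h : i < j) : mw F N a i k j = 0 := by
  funext r
  have := r.2.2.2
  exact if_neg (by omega)

theorem exists_model (hν : ν ≠ 0) (h : ∀ i < N, Valid (e + i) (a i) (s i)) :
    ∃ (β : LinearMap.BilinForm F (CI N a → F)) (n : End F (CI N a → F)) (v : ℕ → ℕ → CI N a → F),
      β.Nondegenerate ∧ (∀ x y, β y x = (-1) ^ e * β x y) ∧ Skew β n ⊤ ∧ Ch β ν e n ⊤ N a s v := by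
  let β : LinearMap.BilinForm F (CI N a → F) := Matrix.toBilin' (chG ν e N a s)
  let n : End F (CI N a → F) := (Pi.basisFun F _).constr F fun p => mw F N a p.1 p.2.1 (p.2.2 + 1)
  have hn : ∀ i < N, ∀ k < a i, ∀ j, n (mw F N a i k j) = mw F N a i k (j + 1) :=
    fun i hi k hk j => by
    rcases le_or_gt j i with hj | hj
    · have := mw_eq (F := F) (N := N) (a := a) ⟨⟨i, hi⟩, ⟨k, hk⟩, ⟨j, Nat.lt_succ_of_le hj⟩⟩
      rw [this, ← Pi.basisFun_apply, Basis.constr_basis]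
    · rw [mw_eq_zero hj, mw_eq_zero (by omega), map_zero]
  have hp : ∀ i < N, ∀ k < a i, ∀ j, (n ^ j) (mw F N a i k 0) = mw F N a i k j :=
    fun i hi k hk j => by
    induction j with
    | zero => rfl
    | succ j ih => rw [pow_succ', End.mul_apply, ih, hn i hi k hk]
  have hb : ∀ i < N, ∀ k < a i, ∀ j, ∀ i' < N, ∀ k' < a i', ∀ j',
      β (mw F N a i k j) (mw F N a i' k' j') =
        (-1) ^ j' * if i = i' ∧ j' + j = i then stdB ν (e + i) (s i) k k' else 0 :=
    fun i hi k hk j i' hi' k' hk' j' => by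
    rcases le_or_gt j i with hj | hj
    · rcases le_or_gt j' i' with hj' | hj'
      · rw [mw_eq (F := F) (N := N) (a := a) ⟨⟨i, hi⟩, ⟨k, hk⟩, ⟨j, Nat.lt_succ_of_le hj⟩⟩,
          mw_eq (F := F) (N := N) (a := a) ⟨⟨i', hi'⟩, ⟨k', hk'⟩, ⟨j', Nat.lt_succ_of_le hj'⟩⟩,
          Matrix.toBilin'_single]
        rfl
      · rw [mw_eq_zero hj', map_zero, if_neg (by omega), mul_zero]
    · rw [mw_eq_zero hj, LinearMap.map_zero₂, if_neg (by omega), mul_zero]
  have ext2 : ∀ f g : LinearMap.BilinForm F (CI N a → F), (∀ i < N, ∀ k < a i, ∀ j, ∀ i' < N,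
      ∀ k' < a i', ∀ j', f (mw F N a i k j) (mw F N a i' k' j') =
        g (mw F N a i k j) (mw F N a i' k' j')) → ∀ x y, f x y = g x y := fun f g hfg x y => by
    have : f = g := (Pi.basisFun F _).ext fun p => (Pi.basisFun F _).ext fun r => by
      rw [Pi.basisFun_apply, Pi.basisFun_apply, ← mw_eq, ← mw_eq]
      exact hfg _ p.1.2 _ p.2.1.2 _ _ r.1.2 _ r.2.1.2 _
    rw [this]
  refine ⟨β, n, fun i k => mw F N a i k 0, Matrix.nondegenerate_toBilin'_iff.2
    (Matrix.nondegenerate_of_det_ne_zero (chG_det_ne hν h)),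
    ext2 β.flip (((-1 : F) ^ e) • β) fun i hi k hk j i' hi' k' hk' j' => ?_,
    ⟨fun _ _ => trivial, fun x _ y _ => ext2 (β.compLeft n) (-β.compRight n)
      (fun i hi k hk j i' hi' k' hk' j' => ?_) x y⟩, h, ?_, fun i hi k hk => ?_,
    fun i hi k hk i' hi' k' hk' j => ?_⟩
  · change β (mw F N a i' k' j') (mw F N a i k j) = _ * β (mw F N a i k j) (mw F N a i' k' j')
    rw [hb _ hi _ hk _ _ hi' _ hk', hb _ hi' _ hk' _ _ hi _ hk]
    by_cases h1 : i = i' ∧ j' + j = i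
    · obtain ⟨rfl, rfl⟩ := h1
      rw [if_pos ⟨rfl, add_comm _ _⟩, if_pos ⟨rfl, rfl⟩, stdB_swap, pow_add, pow_add]
      have : (-1 : F) ^ j * (-1) ^ j = 1 := by rw [← mul_pow]; simp
      linear_combination ((-1) ^ e * (-1) ^ j' * stdB ν (e + (j' + j)) (s (j' + j)) k k') * this
    · rw [if_neg h1, if_neg (by omega), mul_zero, mul_zero, mul_zero]
  · change β (n (mw F N a i k j)) (mw F N a i' k' j') =
      -β (mw F N a i k j) (n (mw F N a i' k' j'))
    rw [hn _ hi _ hk, hn _ hi' _ hk', hb _ hi _ hk _ _ hi' _ hk', hb _ hi _ hk _ _ hi' _ hk',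
      pow_succ, add_assoc, add_comm 1 j]
    ring
  · refine top_le_iff.1 ((Pi.basisFun F _).span_eq.ge.trans (Submodule.span_mono ?_))
    rintro _ ⟨p, rfl⟩
    exact ⟨p.1, p.1.2, p.2.1, p.2.1.2, p.2.2, by
      rw [hp _ p.1.2 _ p.2.1.2, mw_eq, Pi.basisFun_apply]⟩
  · rw [hp i hi k hk, mw_eq_zero (by omega)]
  · rw [hp i hi k hk, hb _ hi _ hk _ _ hi' _ hk', pow_zero, one_mul, zero_add]

theorem card_CI (N : ℕ) (a : ℕ → ℕ) : Fintype.card (CI N a) = ∑ i ∈ range N, (i + 1) * a i := by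
  rw [Fintype.card_sigma, ← Fin.sum_univ_eq_sum_range fun i => (i + 1) * a i]
  simp [mul_comm]

/-! ### Cayley transform -/

theorem cay_iso {g : End F V} (hn : Skew β n ⊤) (hN : n ^ N = 0) (hg : g * (1 - n) = 1 + n)
    (x y : V) : β (g x) (g y) = β x y := by
  have hu : IsUnit (1 - n) := IsNilpotent.isUnit_one_sub ⟨N, hN⟩
  obtain ⟨x, rfl⟩ := ((End.isUnit_iff _).1 hu).2 x
  obtain ⟨y, rfl⟩ := ((End.isUnit_iff _).1 hu).2 y
  rw [← End.mul_apply, ← End.mul_apply g, hg]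
  simp only [LinearMap.add_apply, LinearMap.sub_apply, End.one_apply, map_add, map_sub,
    hn.skew x trivial y trivial]
  ring

theorem cay_exists (hN : n ^ N = 0) : ∃ g : End F V, g * (1 - n) = 1 + n := by
  obtain ⟨u, hu⟩ : IsUnit (1 - n) := IsNilpotent.isUnit_one_sub ⟨N, hN⟩
  exact ⟨(1 + n) * u⁻¹.1, by rw [← hu, mul_assoc, u.inv_mul, mul_one]⟩

theorem cay_pow {R : Type*} [Ring R] (p : ℕ) [Fact p.Prime] [CharP R p] {g n : R} (hN : n ^ p = 0)
    (hg : g * (1 - n) = 1 + n) : g ^ p = 1 := by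
  obtain ⟨u, hu⟩ : IsUnit (1 - n) := IsNilpotent.isUnit_one_sub ⟨p, hN⟩
  have h1 : g = (1 + n) * u⁻¹.1 := by rw [← hg, ← hu, mul_assoc, u.mul_inv, mul_one]
  have h2 : Commute (1 + n) u.1 := by
    rw [hu]
    exact (Commute.one_right _).sub_right ((Commute.one_left _).add_left (Commute.refl _))
  have h3 : u ^ p = 1 := Units.ext (by
    rw [Units.val_pow_eq_pow_val, hu, sub_pow_char_of_commute p (Commute.one_left _), hN]; simp)
  rw [h1, h2.units_inv_right.mul_pow, add_pow_char_of_commute p (Commute.one_left _), hN,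
    ← Units.val_pow_eq_pow_val, inv_pow, h3]
  simp

theorem isUnit_add_one {R : Type*} [Ring R] (p : ℕ) [Fact p.Prime] [CharP R p]
    (h2 : IsUnit (2 : R)) {g : R} (hg : g ^ p = 1) : IsUnit (g + 1) := by
  rw [← isUnit_pow_iff (Fact.out : p.Prime).ne_zero, add_pow_char_of_commute p (Commute.one_right _),
    hg, one_pow, one_add_one_eq_two]
  exact h2

theorem cay_unique {R : Type*} [Ring R] {g n n' : R} (hu : IsUnit (g + 1))
    (hg : g * (1 - n) = 1 + n) (hg' : g * (1 - n') = 1 + n') : n = n' := by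
  refine hu.mul_left_cancel ?_
  have key : ∀ n : R, g * (1 - n) = 1 + n → (g + 1) * n = g - 1 := fun n hg => by
    rw [mul_sub, mul_one, sub_eq_iff_eq_add] at hg
    rw [add_mul, one_mul, eq_sub_iff_add_eq]
    conv_rhs => rw [hg]
    abel
  rw [key n hg, key n' hg']

theorem cay_of_pow (p : ℕ) [Fact p.Prime] [CharP (End F V) p] (h2 : (2 : F) ≠ 0) {g : End F V}
    (hg : ∀ x y, β (g x) (g y) = β x y) (hp : g ^ p = 1) :
    ∃ n : End F V, Skew β n ⊤ ∧ n ^ p = 0 ∧ g * (1 - n) = 1 + n := by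
  have h2' : IsUnit (2 : End F V) := by
    have := (Ne.isUnit h2).map (algebraMap F (End F V))
    rwa [map_ofNat] at this
  obtain ⟨u, hu⟩ := isUnit_add_one p h2' hp
  have hc : Commute (g - 1) u.1 := by
    rw [hu]
    exact ((Commute.refl _).add_right (Commute.one_right _)).sub_left (Commute.one_left _)
  have e1 : (g - 1) * u⁻¹.1 * (g + 1) = g - 1 := by rw [← hu, mul_assoc, u.inv_mul, mul_one]
  refine ⟨(g - 1) * u⁻¹.1, ⟨fun _ _ => trivial, fun x _ y _ => ?_⟩, ?_, ?_⟩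
  · obtain ⟨x, rfl⟩ := ((End.isUnit_iff _).1 (hu ▸ u.isUnit)).2 x
    obtain ⟨y, rfl⟩ := ((End.isUnit_iff _).1 (hu ▸ u.isUnit)).2 y
    rw [← End.mul_apply, ← End.mul_apply _ (g + 1), e1]
    simp only [LinearMap.add_apply, LinearMap.sub_apply, End.one_apply, map_add, map_sub, hg]
    ring
  · rw [hc.units_inv_right.mul_pow, sub_pow_char_of_commute p (Commute.one_right _), hp, one_pow,
      sub_self, zero_mul]
  · refine (hu ▸ u.isUnit : IsUnit (g + 1)).mul_right_cancel ?_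
    rw [mul_assoc, sub_mul, add_mul 1, e1]
    noncomm_ring

end Cfsg.Agent.H64
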