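import Mathlib

/-! Witt's determinant argument for the principal ideal theorem. -/

set_option autoImplicit false

namespace Cfsg.Agent.H64

open scoped Pointwise

theorem det_kill {R M ι : Type*} [CommRing R] [AddCommGroup M] [Module R M] [Fintype ι] [DecidableEq ι]
    (A : Matrix ι ι R) (v : ι → M) (h : ∀ i, ∑ j, A i j • v j = 0) (i : ι) : A.det • v i = 0 := by
  have : ∑ k, (A.adjugate * A) i k • v k = 0 := by
    simp only [Matrix.mul_apply, Finset.sum_smul, mul_smul]
    rw [Finset.sum_comm]
    simp only [← Finset.smul_sum, h, smul_zero, Finset.sum_const_zero]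
  simpa [Matrix.adjugate_mul, Matrix.one_apply] using this

theorem exists_gens (Q : Type*) [CommGroup Q] [Finite Q] : ∃ (ι : Type) (_ : Fintype ι) (n : ι → ℕ)
    (y : ι → Q), ∏ i, n i = Nat.card Q ∧ (∀ i, y i ^ n i = 1) ∧ ∀ q, ∃ k : ι → ℕ, q = ∏ i, y i ^ k i := by
  classical
  obtain ⟨ι, _, n, hn, ⟨e⟩⟩ := CommGroup.equiv_prod_multiplicative_zmod_of_finite Q
  have k : ∀ i (m : ℕ), e.symm (Pi.mulSingle i (Multiplicative.ofAdd 1)) ^ m =
      e.symm (Pi.mulSingle i (Multiplicative.ofAdd (m : ZMod (n i)))) := fun i m => by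
    rw [← map_pow, ← Pi.mulSingle_pow, ← ofAdd_nsmul, nsmul_one]
  refine ⟨ι, inferInstance, n, fun i => e.symm (Pi.mulSingle i (Multiplicative.ofAdd 1)), ?_,
    fun i => by simp [k], fun q => ⟨fun i => (e q i).toAdd.val, ?_⟩⟩
  · simp [Nat.card_congr e.toEquiv, Nat.card_pi, Nat.card_congr Multiplicative.toAdd]
  · have : ∀ i, NeZero (n i) := fun i => NeZero.of_gt (hn i)
    simp [k, ← map_prod, Finset.univ_prod_mulSingle]

theorem exists_kill {G R M : Type*} [Group G] [Finite G] [CommRing R] [AddCommGroup M] [Module R M]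
    (ε : R →+* ℤ) (χ : G → R) (hχ : ∀ g, ε (χ g) = 1) (D : G → M)
    (hD : ∀ x y, D (x * y) = D x + χ x • D y) :
    ∃ μ, ε μ = Nat.card (Abelianization G) ∧ ∀ g, μ • D g = 0 := by
  classical
  obtain ⟨ι, _, n, y, h1, h2, h3⟩ := exists_gens (Abelianization G)
  choose x hx using fun i => QuotientGroup.mk_surjective (s := commutator G) (y i)
  replace hx : ∀ i, Abelianization.of (x i) = y i := hx
  set P := Submodule.span R (Set.range D)
  set N := RingHom.ker ε • P
  have hP : ∀ g, D g ∈ P := fun g => Submodule.subset_span ⟨g, rfl⟩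
  let δ : Abelianization G →* Multiplicative (M ⧸ N) := Abelianization.lift
    (MonoidHom.mk' (fun g => Multiplicative.ofAdd (N.mkQ (D g))) fun a b => by
      rw [← ofAdd_add, ← map_add, N.mkQ_apply, N.mkQ_apply, (Submodule.Quotient.eq N).2]
      rw [hD, add_sub_add_left_eq_sub, ← one_smul R (D b), smul_smul, ← sub_smul]
      exact Submodule.smul_mem_smul (by simp [hχ]) (hP b))
  have hδ : ∀ g, (δ (Abelianization.of g)).toAdd = N.mkQ (D g) := fun g => rfl
  obtain ⟨r, hr, hr'⟩ := Submodule.exists_sub_one_mem_and_smul_le_of_fg_of_le_sup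
    (I := RingHom.ker ε) (N := Submodule.span R (Set.range fun i => D (x i))) (N' := P) (P := P)
    (Submodule.fg_span (Set.finite_range D)) le_rfl (Submodule.span_le.2 (by
      rintro _ ⟨g, rfl⟩
      obtain ⟨k, hk⟩ := h3 (Abelianization.of g)
      have := hδ g
      simp only [hk, map_prod, map_pow, toAdd_prod, toAdd_pow, ← hx, hδ, ← map_nsmul, ← map_sum] at this
      rw [← add_sub_cancel (∑ i, k i • D (x i)) (D g)]
      exact Submodule.add_mem_sup (Submodule.sum_mem _ fun i _ => nsmul_mem (Submodule.subset_span (Set.mem_range_self i)) _)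
        ((Submodule.Quotient.eq N).1 this.symm)))
  have hn : ∀ i, r • (n i • D (x i)) ∈ RingHom.ker ε • Submodule.span R (Set.range fun i => D (x i)) := by
    intro i
    have : n i • D (x i) ∈ N := by
      rw [← Submodule.Quotient.mk_eq_zero, ← N.mkQ_apply, map_nsmul, ← hδ, ← toAdd_pow, ← map_pow, hx, h2,
        map_one, toAdd_one]
    refine Submodule.smul_induction_on this (fun a ha m hm => ?_) fun a b ha hb => ?_
    · rw [smul_comm]
      exact Submodule.smul_mem_smul ha (hr' (Submodule.smul_mem_pointwise_smul _ _ _ hm))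
    · rw [smul_add]
      exact add_mem ha hb
  choose a ha ha' using fun i => (Submodule.mem_ideal_smul_span_iff_exists_sum _ _ _).1 (hn i)
  have e1 : ε r = 1 := by simpa [sub_eq_zero] using hr
  let A : Matrix ι ι R := Matrix.diagonal (fun i => r * n i) - Matrix.of fun i j => a i j
  refine ⟨A.det * r, ?_, fun g => ?_⟩
  · have : ε.mapMatrix A = Matrix.diagonal fun i => (n i : ℤ) := by
      ext i j
      simp [A, Matrix.diagonal_apply, apply_ite ε, e1, RingHom.mem_ker.1 (ha i j)]
    rw [map_mul, e1, mul_one, RingHom.map_det, this, Matrix.det_diagonal, ← h1, Nat.cast_prod]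
  · rw [mul_smul]
    refine Submodule.span_induction (p := fun m _ => A.det • m = 0) ?_ (smul_zero _)
      (fun a b _ _ ha hb => by rw [smul_add, ha, hb, add_zero])
      (fun a b _ hb => by rw [smul_comm, hb, smul_zero]) (hr' (Submodule.smul_mem_pointwise_smul _ _ _ (hP g)))
    rintro _ ⟨i, rfl⟩
    refine det_kill A (fun i => D (x i)) (fun i => ?_) i
    have := ha' i
    rw [Finsupp.sum_fintype _ _ (by simp)] at this
    simp [A, sub_smul, Matrix.diagonal_apply, this, mul_smul, Nat.cast_smul_eq_nsmul]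

theorem sum_derivation {G A : Type*} [Group G] [Finite G] [AddCommGroup A] [Fintype (Abelianization G)]
    (D : G → Abelianization G → A)
    (hD : ∀ x y q, D (x * y) q = D x q + D y ((Abelianization.of x)⁻¹ * q)) (g : G) : ∑ q, D g q = 0 := by
  classical
  let ρ : Abelianization G →* Module.End ℤ (Abelianization G → A) :=
    { toFun := fun s => LinearMap.funLeft ℤ A fun q => s⁻¹ * q
      map_one' := LinearMap.ext fun f => funext fun q => by simp
      map_mul' := fun s t => LinearMap.ext fun f => funext fun q => by simp [mul_assoc] }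
  let := Module.compHom (Abelianization G → A) (MonoidAlgebra.lift ℤ _ _ ρ).toRingHom
  have hs : ∀ s (c : ℤ) (f : Abelianization G → A) q,
      ((MonoidAlgebra.single s c : MonoidAlgebra ℤ (Abelianization G)) • f) q = c • f (s⁻¹ * q) := fun s c f q => by
    change MonoidAlgebra.lift ℤ _ _ ρ (MonoidAlgebra.single s c) f q = _
    rw [MonoidAlgebra.lift_single]
    rfl
  obtain ⟨μ, h1, h2⟩ := exists_kill (MonoidAlgebra.lift ℤ ℤ (Abelianization G) 1).toRingHom
    (fun g => MonoidAlgebra.single (Abelianization.of g) 1) (by simp)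
    (fun g => (D g, (MonoidAlgebra.single (Abelianization.of g) 1 - 1 : MonoidAlgebra ℤ (Abelianization G))))
    (fun x y => Prod.ext (funext fun q => (hD x y q).trans (congrArg _ ((hs _ _ _ _).trans (one_smul _ _)).symm))
      (by simp [mul_sub, MonoidAlgebra.single_mul_single]))
  have h3 : ∀ q, μ.coeff q = μ.coeff 1 := fun q => by
    obtain ⟨x, rfl⟩ := QuotientGroup.mk_surjective (s := commutator G) q
    have k : μ * (MonoidAlgebra.single (Abelianization.of x) 1 - 1) = 0 := congrArg Prod.snd (h2 x)
    rw [mul_sub, mul_one, sub_eq_zero] at k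
    conv_lhs => rw [← k]
    exact (MonoidAlgebra.coeff_mul_single_apply ..).trans
      ((mul_one _).trans (congrArg _ (mul_inv_cancel (Abelianization.of x))))
  have h4 : μ = ∑ q, MonoidAlgebra.single q (μ.coeff 1) := by
    ext q
    simp [h3 q, Finsupp.single_apply]
  rw [h4] at h1
  have h5 : μ.coeff 1 = 1 := by simpa using h1
  have h6 : (μ • D g) 1 = 0 := congrFun (congrArg Prod.fst (h2 g)) 1
  rw [h4, h5, Finset.sum_smul, Finset.sum_apply] at h6
  simp only [hs, one_smul, mul_one] at h6
  rw [← h6]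
  exact (Equiv.sum_comp (Equiv.inv _) _).symm

end Cfsg.Agent.H64
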