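import Mathlib
import Cfsg.Agent.H67.RootClass
import Cfsg.Agent.H67.SUConj

/-! Counting self-reciprocal monic polynomials; semisimple symplectic elements with a prescribed
palindromic characteristic polynomial. -/

set_option autoImplicit false

namespace Cfsg.Agent.H64

open Polynomial

variable {F : Type*} [Field F]

theorem coeff_sum_monomial (N : ℕ) (c : ℕ → F) (i : ℕ) :
    (∑ j ∈ Finset.range (N + 1), monomial j (c j)).coeff i = if i ≤ N then c i else 0 := by
  rw [finsetSum_coeff]
  simp only [coeff_monomial]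
  rw [Finset.sum_ite_eq' ]
  simp

theorem monic_sum_monomial (N : ℕ) (c : ℕ → F) (h : c N = 1) :
    (∑ j ∈ Finset.range (N + 1), monomial j (c j)).Monic ∧
      (∑ j ∈ Finset.range (N + 1), monomial j (c j)).natDegree = N := by
  have h1 : (∑ j ∈ Finset.range (N + 1), monomial j (c j)).natDegree ≤ N := by
    rw [natDegree_le_iff_coeff_eq_zero]
    intro i hi
    rw [coeff_sum_monomial, if_neg (by omega)]
  have h2 : (∑ j ∈ Finset.range (N + 1), monomial j (c j)).coeff N = 1 := by
    rw [coeff_sum_monomial, if_pos le_rfl, h]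
  exact ⟨monic_of_natDegree_le_of_coeff_eq_one N h1 h2,
    natDegree_eq_of_le_of_coeff_ne_zero h1 (by rw [h2]; exact one_ne_zero)⟩

theorem card_palin [Fintype F] (m : ℕ) :
    Nat.card {f : F[X] // (f.Monic ∧ f.natDegree = 2 * m) ∧ reflect (2 * m) f = f} =
      Fintype.card F ^ m := by
  have : Nat.card (Fin m → F) = Fintype.card F ^ m := by simp
  rw [← this]
  refine Nat.card_eq_of_bijective (fun f j => f.1.coeff (j + 1)) ⟨?_, ?_⟩
  · rintro ⟨f, ⟨hf1, hf2⟩, hf3⟩ ⟨g, ⟨hg1, hg2⟩, hg3⟩ h
    have key : ∀ i, i ≤ m → f.coeff i = g.coeff i := by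
      intro i hi
      rcases i with _ | i
      · rw [← hf3, ← hg3, coeff_reflect, coeff_reflect, revAt_zero]
        have a1 := hf1.coeff_natDegree
        have a2 := hg1.coeff_natDegree
        rw [hf2] at a1
        rw [hg2] at a2
        rw [a1, a2]
      · exact congrFun h ⟨i, by omega⟩
    refine Subtype.ext (Polynomial.ext fun i => ?_)
    by_cases hi : i ≤ m
    · exact key i hi
    by_cases hi' : i ≤ 2 * m
    · change f.coeff i = g.coeff i
      rw [← hf3, ← hg3, coeff_reflect, coeff_reflect, revAt_le hi']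
      exact key _ (by omega)
    · change f.coeff i = g.coeff i
      rw [coeff_eq_zero_of_natDegree_lt (by omega), coeff_eq_zero_of_natDegree_lt (by omega)]
  · intro b
    let c : ℕ → F := fun i => if h : 0 < min i (2 * m - i) then b ⟨min i (2 * m - i) - 1, by omega⟩
      else 1
    have hc : c (2 * m) = 1 := by simp [c]
    refine ⟨⟨∑ j ∈ Finset.range (2 * m + 1), monomial j (c j), monic_sum_monomial _ c hc, ?_⟩, ?_⟩
    · ext i
      rw [coeff_reflect, coeff_sum_monomial, coeff_sum_monomial]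
      by_cases hi : i ≤ 2 * m
      · rw [revAt_le hi, if_pos (by omega), if_pos hi]
        have : min (2 * m - i) (2 * m - (2 * m - i)) = min i (2 * m - i) := by omega
        simp only [c, this]
      · rw [revAt_eq_self_of_lt (by omega)]
    · funext j
      have hj := j.2
      change (∑ j ∈ Finset.range (2 * m + 1), monomial j (c j)).coeff (j + 1) = _
      rw [coeff_sum_monomial, if_pos (by omega)]
      have : min ((j : ℕ) + 1) (2 * m - (j + 1)) = j + 1 := by omega
      simp only [c, this]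
      rw [dif_pos (by omega)]
      rfl

section unitary

variable {K : Type*} [Field K] [Fintype K] {q : ℕ} [hK : Fact (Fintype.card K = q ^ 2)]

theorem card_fix_rev (k : ℕ) (ε : K) (h1 : H10.cj K q ε = ε) (h2 : ε * ε = 1) :
    Nat.card {b : Fin k → K // ∀ j, H10.cj K q (b j) = ε * b j.rev} = q ^ k := by
  classical
  obtain ⟨d, hd0, hd⟩ := H10.exists_skew (F := K) (q := q)
  obtain ⟨ω, hω⟩ := H10.exists_trace_eq_one (F := K) (q := q)
  let φ : (Fin k → K) →+ (Fin k → K) :=
    { toFun := fun b j => b j - ε * H10.cj K q (b j.rev)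
      map_zero' := by funext j; simp
      map_add' := fun a b => by funext j; simp only [Pi.add_apply, map_add]; ring }
  have hφ : ∀ b j, φ b j = b j - ε * H10.cj K q (b j.rev) := fun _ _ => rfl
  have hker : ∀ b, b ∈ φ.ker ↔ ∀ j, H10.cj K q (b j) = ε * b j.rev := by
    intro b
    rw [AddMonoidHom.mem_ker, funext_iff]
    constructor
    · intro h j
      have := h j.rev
      rw [hφ, Fin.rev_rev, Pi.zero_apply] at this
      linear_combination (-ε) * this - H10.cj K q (b j) * h2
    · intro h j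
      rw [hφ, h, Fin.rev_rev, Pi.zero_apply]
      linear_combination (-b j) * h2
  have e1 : Nat.card {b : Fin k → K // ∀ j, H10.cj K q (b j) = ε * b j.rev} = Nat.card φ.ker :=
    Nat.card_congr (Equiv.subtypeEquivRight fun b => (hker b).symm)
  have e2 : Nat.card φ.ker = Nat.card φ.range := by
    refine Nat.card_eq_of_bijective (fun b => ⟨d • b.1, ω • d • b.1, ?_⟩) ⟨?_, ?_⟩
    · funext j
      have := (hker _).1 b.2 j.rev
      rw [hφ]
      simp only [Pi.smul_apply, smul_eq_mul, map_mul, this, hd, Fin.rev_rev]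
      linear_combination (d * b.1 j) * hω + (H10.cj K q ω * d * b.1 j) * h2
    · intro a b h
      exact Subtype.ext (smul_right_injective _ hd0 (congrArg Subtype.val h))
    · rintro ⟨_, c, rfl⟩
      refine ⟨⟨d⁻¹ • φ c, (hker _).2 fun j => ?_⟩, Subtype.ext (smul_inv_smul₀ hd0 _)⟩
      simp only [Pi.smul_apply, smul_eq_mul, map_mul, hφ, map_sub, map_inv₀, hd, h1, H10.cj_cj,
        Fin.rev_rev, inv_neg]
      linear_combination (d⁻¹ * H10.cj K q (c j)) * h2
  have e3 : Nat.card (Fin k → K) = Nat.card φ.range * Nat.card φ.ker := by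
    rw [AddSubgroup.card_eq_card_quotient_mul_card_addSubgroup φ.ker,
      Nat.card_congr (QuotientAddGroup.quotientKerEquivRange φ).toEquiv]
  rw [← e2, Nat.card_fun, Nat.card_eq_fintype_card, hK.out, Nat.card_eq_fintype_card (α := Fin k),
    Fintype.card_fin, ← pow_mul, mul_comm 2, pow_mul, sq] at e3
  rw [e1]
  exact (Nat.mul_self_inj.1 e3).symm

theorem card_upalin (k : ℕ) (ε : K) (h1 : H10.cj K q ε = ε) (h2 : ε * ε = 1) :
    Nat.card {f : K[X] // (f.Monic ∧ f.natDegree = k + 1) ∧
      f.map (H10.cj K q) = C ε * reflect (k + 1) f} = q ^ k := by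
  rw [← card_fix_rev k ε h1 h2]
  have hcoef : ∀ f : K[X], f.map (H10.cj K q) = C ε * reflect (k + 1) f → ∀ i, i ≤ k + 1 →
      H10.cj K q (f.coeff i) = ε * f.coeff (k + 1 - i) := fun f hf i hi => by
    have := congrArg (fun p => coeff p i) hf
    simpa only [coeff_map, coeff_C_mul, coeff_reflect, revAt_le hi] using this
  refine Nat.card_eq_of_bijective (fun f => ⟨fun j => f.1.coeff (j + 1), fun j => ?_⟩) ⟨?_, ?_⟩
  · have hj := j.2
    rw [hcoef _ f.2.2 _ (by omega)]
    simp only [Fin.val_rev]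
    congr 2
    omega
  · rintro ⟨f, ⟨hf1, hf2⟩, hf3⟩ ⟨g, ⟨hg1, hg2⟩, hg3⟩ h
    have a1 := hf1.coeff_natDegree
    have a2 := hg1.coeff_natDegree
    rw [hf2] at a1
    rw [hg2] at a2
    refine Subtype.ext (Polynomial.ext fun i => ?_)
    change f.coeff i = g.coeff i
    rcases i with _ | i
    · apply H10.cj_injective (F := K) (q := q)
      rw [hcoef f hf3 0 (by omega), hcoef g hg3 0 (by omega), Nat.sub_zero, a1, a2]
    rcases lt_trichotomy i k with hi | rfl | hi
    · exact congrFun (congrArg Subtype.val h) ⟨i, hi⟩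
    · rw [a1, a2]
    · rw [coeff_eq_zero_of_natDegree_lt (by omega), coeff_eq_zero_of_natDegree_lt (by omega)]
  · rintro ⟨b, hb⟩
    let c : ℕ → K := fun i => if i = 0 then ε else if h : i - 1 < k then b ⟨i - 1, h⟩ else 1
    have hc : c (k + 1) = 1 := by simp [c]
    refine ⟨⟨∑ j ∈ Finset.range (k + 1 + 1), monomial j (c j), monic_sum_monomial _ c hc, ?_⟩, ?_⟩
    · ext i
      rw [coeff_map, coeff_C_mul, coeff_reflect, coeff_sum_monomial, coeff_sum_monomial]
      by_cases hi : i ≤ k + 1
      · rw [revAt_le hi, if_pos hi, if_pos (by omega)]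
        rcases i with _ | i
        · rw [Nat.sub_zero, hc, mul_one]
          simpa [c] using h1
        rcases lt_or_eq_of_le (Nat.le_of_succ_le_succ hi) with hi' | rfl
        · have e1 : c (i + 1) = b ⟨i, hi'⟩ := by simp [c, hi']
          have e2 : c (k + 1 - (i + 1)) = b (Fin.rev ⟨i, hi'⟩) := by
            simp only [c]
            rw [if_neg (by omega), dif_pos (by omega)]
            congr 1
            ext
            simp only [Fin.val_rev]
            omega
          rw [e1, e2, hb]
        · rw [hc, Nat.sub_self, map_one]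
          simp [c, h2]
      · rw [revAt_eq_self_of_lt (by omega), if_neg hi, map_zero, mul_zero]
    · refine Subtype.ext (funext fun j => ?_)
      have hj := j.2
      change (∑ j ∈ Finset.range (k + 1 + 1), monomial j (c j)).coeff (j + 1) = _
      rw [coeff_sum_monomial, if_pos (by omega)]
      simp [c]

end unitary

section sp

open H67 Module

variable {Ω : Type*} [Field Ω] [Algebra F Ω] [IsAlgClosed Ω]

theorem ev_prodMap_sim {ι κ μ : Type*} [Fintype ι] [DecidableEq ι] [Fintype κ] [DecidableEq κ]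
    [Fintype μ] [DecidableEq μ] {A : Matrix ι ι F} {B : Matrix κ κ F} {D : Matrix μ μ F}
    (h : Sim ((Matrix.toLin' A).prodMap (Matrix.toLin' B)) (Matrix.toLin' D)) :
    (∀ N, A ^ N = 1 → B ^ N = 1 → D ^ N = 1) ∧ ev Ω D = ev Ω A + ev Ω B := by
  refine ⟨fun N hN hN' => ?_, ?_⟩
  · have := (h.pow N).eq_one_iff.1 (by
      have := map_pow (LinearMap.prodMapRingHom F (ι → F) (κ → F))
        (Matrix.toLin' A, Matrix.toLin' B) N
      rw [Prod.pow_mk, toLin'_pow', toLin'_pow', hN, hN', Matrix.toLin'_one,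
        Matrix.toLin'_one] at this
      exact this.symm.trans (map_one (LinearMap.prodMapRingHom F (ι → F) (κ → F))))
    rw [toLin'_pow'] at this
    exact Matrix.toLin'.injective (this.trans Matrix.toLin'_one.symm)
  · obtain ⟨e, he⟩ := h
    rw [ev, ev, ev, ← Matrix.charpoly_toLin', Sim.eq_conj e he, LinearEquiv.charpoly_conj,
      LinearMap.charpoly_prodMap, Matrix.charpoly_toLin', Matrix.charpoly_toLin',
      Polynomial.map_mul, roots_mul (mul_ne_zero (A.charpoly_monic.map _).ne_zero
        (B.charpoly_monic.map _).ne_zero)]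

/-- a semisimple symplectic element with a prescribed (admissible) eigenvalue multiset -/
theorem exists_sp_ss_ev [Fintype F] (p : ℕ) [Fact p.Prime] [CharP F p] {m : ℕ} {s : Multiset Ω}
    (hs0 : ∀ x ∈ s, x ≠ 0) (hs : s.map (fun x => x ^ Fintype.card F) = s)
    (hs' : s.map (fun x => x⁻¹) = s) (hc : s.card = 2 * m) (hp : s.prod = 1) :
    ∃ g : Matrix.symplecticGroup (Fin m) F, (orderOf g).Coprime p ∧ ev Ω g.1 = s := by
  classical
  have key : ∀ φ : Ω → Ω, (∀ x, φ x ^ 2 = 1 ↔ x ^ 2 = 1) → s.map φ = s →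
      (s.filter (fun x => x ^ 2 ≠ 1)).map φ = s.filter (fun x => x ^ 2 ≠ 1) := fun φ h1 h3 => by
    conv_rhs => rw [← h3, Multiset.filter_map]
    congr 1
    exact Multiset.filter_congr fun x _ => by rw [Function.comp_apply, Ne, Ne, h1]
  have h1 := key (fun x => x ^ Fintype.card F) (fun x => by
    rw [← pow_mul, mul_comm, pow_mul]
    conv_lhs => rw [← one_pow (M := Ω) (Fintype.card F)]
    exact (frob_injective (F := F)).eq_iff) hs
  have h2 := key (fun x => x⁻¹) (fun x => by rw [inv_pow, inv_eq_one]) hs'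
  have h3 : ∀ x ∈ s.filter (fun x => x ^ 2 ≠ 1), x ≠ 0 ∧ x ^ 2 ≠ 1 := fun x hx =>
    ⟨hs0 x (Multiset.mem_filter.1 hx).1, (Multiset.mem_filter.1 hx).2⟩
  obtain ⟨B, -, -, β, hβ1, hβ2, -⟩ :=
    exists_pres_ev_eq (ι := Fin (s.filter (fun x => x ^ 2 ≠ 1)).card) true h1 h2 h3 (by simp)
  obtain ⟨k, hk⟩ := H3.even_finrank_of_isAlt β hβ2 hβ1
  obtain ⟨A, hA1, hA2, hA3⟩ := exists_pres_ev_eq (ι := Fin (2 * k)) true h1 h2 h3
    (by simpa [two_mul] using hk)
  obtain ⟨A', hA'⟩ := hA3.exists_sp (m := k) (by simp)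
  have hevA : ev Ω A'.1 = s.filter (fun x => x ^ 2 ≠ 1) := (ev_of_sim hA').symm.trans hA2
  have hprod : (s.filter (fun x => x ^ 2 ≠ 1)).prod = 1 := by
    rw [← hevA, prod_ev, SymplecticGroup.det_eq_one A'.2, map_one]
  have hssA : H66.IsSS A'.1 := by
    obtain ⟨Q, hQ1, hQ2⟩ := hA1
    refine ⟨Q, hQ1, ?_⟩
    rw [← H66.aeval_toLin'_eq_zero_iff] at hQ2 ⊢
    exact (hA'.aeval Q).eq_zero_iff.1 hQ2
  have hoA := hssA.coprime_orderOf (Matrix.symplecticGroup (Fin k) F).subtype Subtype.val_injective p (g := A')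
  -- the part with eigenvalue `-1`
  obtain ⟨b, e, hb⟩ : ∃ b e, s = s.filter (fun x => x ^ 2 ≠ 1) + Multiset.replicate (2 * b) (-1) +
      Multiset.replicate e 1 ∧ (b = 0 ∨ p ≠ 2) := by
    by_cases h2' : (-1 : Ω) = 1
    · refine ⟨0, s.count 1, ?_, Or.inl rfl⟩
      rw [mul_zero, Multiset.replicate_zero, add_zero, ← Multiset.filter_eq', add_comm]
      conv_lhs => rw [← Multiset.filter_add_not (fun x => x ^ 2 = 1) s]
      congr 1
      exact Multiset.filter_congr fun x _ => by rw [sq_eq_one_iff, h2', or_self]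
    · have e0 : s = s.filter (fun x => x ^ 2 ≠ 1) + Multiset.replicate (s.count (-1)) (-1) +
          Multiset.replicate (s.count 1) 1 := by
        rw [← Multiset.filter_eq', ← Multiset.filter_eq']
        ext x
        simp only [Multiset.count_add, Multiset.count_filter]
        by_cases hx1 : x = 1
        · subst hx1
          simp [Ne.symm h2']
        by_cases hx2 : x = -1
        · subst hx2
          simp [h2']
        · simp [hx1, hx2]
      have e1 := congrArg Multiset.prod e0
      rw [hp, Multiset.prod_add, Multiset.prod_add, hprod, Multiset.prod_replicate,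
        Multiset.prod_replicate, one_pow, one_mul, mul_one] at e1
      obtain ⟨b, hb⟩ := (neg_one_pow_eq_one_iff_even h2').1 e1.symm
      refine ⟨b, s.count 1, by rw [two_mul, ← hb]; exact e0, Or.inr ?_⟩
      rintro rfl
      haveI : CharP Ω 2 := charP_of_injective_algebraMap (algebraMap F Ω).injective 2
      exact h2' (CharTwo.neg_eq 1)
  obtain ⟨hb1, hb2⟩ := hb
  have hn : Pres true (Matrix.toLin' (-(1 : Matrix (Fin b ⊕ Fin b) (Fin b ⊕ Fin b) F))) := by
    have := (pres_of_sp (1 : Matrix.symplecticGroup (Fin b) F)).neg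
    rwa [← map_neg] at this
  have hevn : ev Ω (-(1 : Matrix (Fin b ⊕ Fin b) (Fin b ⊕ Fin b) F)) =
      Multiset.replicate (2 * b) (-1) := by
    rw [Multiset.eq_replicate]
    refine ⟨by rw [card_ev]; simp [two_mul], fun x hx => ?_⟩
    simpa using pow_eq_of_mem_ev (k := 1) (c := -1) (by simp) hx
  obtain ⟨g₁, hg₁⟩ := ((pres_of_sp A').prod hn).exists_sp (m := k + b) (by simp; ring)
  obtain ⟨h6, h7⟩ := ev_prodMap_sim (Ω := Ω) hg₁
  have hkb : k + b ≤ m := by
    have := congrArg Multiset.card hb1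
    rw [hc, Multiset.card_add, Multiset.card_add, ← hevA, card_ev, Multiset.card_replicate] at this
    simp only [Fintype.card_sum, Fintype.card_fin] at this
    omega
  have h5 := pres_of_sp (1 : Matrix.symplecticGroup (Fin (m - (k + b))) F)
  rw [OneMemClass.coe_one, Matrix.toLin'_one] at h5
  obtain ⟨g, hg⟩ := ((pres_of_sp g₁).prod h5).exists_sp (m := m) (by simp; omega)
  obtain ⟨h8, h9⟩ := ev_of_sim_prod_one (Ω := Ω) hg
  refine ⟨g, ?_, eq_of_card_eq_add_replicate h9 (by rw [h7, hevA, hevn]; exact hb1)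
    (by rw [hc, card_ev]; simp [two_mul])⟩
  have hA0 : A'.1 ^ orderOf A' = 1 := by
    rw [← SubmonoidClass.coe_pow, pow_orderOf_eq_one, OneMemClass.coe_one]
  rcases hb2 with rfl | hb2
  · refine Nat.Coprime.coprime_dvd_left (orderOf_dvd_of_pow_eq_one (Subtype.ext ?_)) hoA
    exact h8 _ (h6 _ hA0 (Subsingleton.elim _ _))
  · refine Nat.Coprime.coprime_dvd_left (n := p) (k := orderOf A' * 2)
      (orderOf_dvd_of_pow_eq_one (Subtype.ext ?_)) (Nat.Coprime.mul_left hoA
        ((Nat.coprime_primes Nat.prime_two Fact.out).2 hb2.symm))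
    exact h8 _ (h6 _ (by rw [pow_mul, hA0, one_pow]) (by rw [mul_comm, pow_mul]; simp))

end sp

end Cfsg.Agent.H64
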